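import Cfsg.Agent.LargeFischer64.Frame

/-!
Large Fischer type: the stabiliser in `H/Q` of the standard singular vector of weight four, with its
normal subgroup of order `32` and quotient `A₆`: the index-two part meets it in a perfect group whose
normal subgroup of order `16` has all its involutions conjugate, and the outer half inverts the
scalar.
-/

set_option autoImplicit false

namespace CfsgLib.LargeFischer64

open CfsgLib.LargeFischer85
open scoped commutatorElement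

variable {K : Type*} [Group K] {q : V → ZMod 2} {act : K →* Equiv.Perm V} {Mb Cb : Subgroup K}
  {φ : Fin 4096 ≃ V} {cl : ZMod 3}

/-- The stabiliser of the standard vector. -/
def stabN (φ : Fin 4096 ≃ V) (act : K →* Equiv.Perm V) : Subgroup K :=
  (MulAction.stabilizer (Equiv.Perm (Fin 4096)) n0).comap (frameHom φ act)

theorem mem_stabN {k : K} : k ∈ stabN φ act ↔ frameHom φ act k n0 = n0 := Iff.rfl

/-- The structure of the stabiliser. -/
structure PairData (φ : Fin 4096 ≃ V) (act : K →* Equiv.Perm V) (E : Subgroup K) : Prop where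
  le : E ≤ stabN φ act
  conj_mem : ∀ g ∈ stabN φ act, ∀ a ∈ E, g * a * g⁻¹ ∈ E
  comm : ∀ a ∈ E, ∀ b ∈ E, a * b = b * a
  sq : ∀ a ∈ E, a * a = 1
  card : Nat.card ↥E = 32
  quot : ∃ ψ : ↥(stabN φ act) →* ↥(alternatingGroup (Fin 6)), Function.Surjective ψ ∧
    ψ.ker = E.subgroupOf (stabN φ act)

theorem simple_alt : IsSimpleGroup ↥(alternatingGroup (Fin 6)) :=
  alternatingGroup.isSimpleGroup (by simp)

theorem card_alt : Nat.card ↥(alternatingGroup (Fin 6)) = 360 := by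
  rw [nat_card_alternatingGroup, Nat.card_eq_fintype_card, Fintype.card_fin]; decide

theorem normal_alt_eq_top {N : Subgroup ↥(alternatingGroup (Fin 6))} (hN : N.Normal) (h1 : N ≠ ⊥) :
    N = ⊤ :=
  (simple_alt.eq_bot_or_eq_top_of_normal N hN).resolve_left h1

theorem commutator_alt :
    (⁅(⊤ : Subgroup ↥(alternatingGroup (Fin 6))), ⊤⁆ : Subgroup ↥(alternatingGroup (Fin 6))) = ⊤ := by
  refine normal_alt_eq_top inferInstance fun hb => ?_
  rw [Subgroup.commutator_eq_bot_iff_le_centralizer] at hb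
  haveI := simple_alt
  letI : CommGroup ↥(alternatingGroup (Fin 6)) :=
    { mul_comm := fun a b => (Subgroup.mem_centralizer_iff.mp (hb (Subgroup.mem_top a)) b trivial).symm }
  have := IsSimpleGroup.prime_card (α := ↥(alternatingGroup (Fin 6)))
  rw [card_alt] at this
  exact absurd this (by norm_num)

/-- The elementary group of order sixteen. -/
def E16 (Mb E : Subgroup K) : Subgroup K := E ⊓ Mb

section Conj

variable {S : Subgroup K} {P : K → Prop}

/-- Conjugation on a stable set. -/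
def conjAction (h : ∀ g ∈ S, ∀ a, P a → P (g * a * g⁻¹)) : MulAction ↥S {a : K // P a} where
  smul g a := ⟨(g : K) * a.1 * (g : K)⁻¹, h g g.2 a.1 a.2⟩
  one_smul a := Subtype.ext (by show (1 : K) * a.1 * 1⁻¹ = a.1; group)
  mul_smul g g' a := Subtype.ext (by
    show ((g : K) * g') * a.1 * ((g : K) * g')⁻¹ = (g : K) * ((g' : K) * a.1 * (g' : K)⁻¹) * (g : K)⁻¹
    group)

end Conj

variable {E : Subgroup K}

/-- The lifts of the two monomial elements. -/
structure Lifts (φ : Fin 4096 ≃ V) (act : K →* Equiv.Perm V) (Mb : Subgroup K) (e s : K) : Prop where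
  e_mem : e ∈ Mb
  s_mem : s ∈ Mb
  e_act : ∀ n, frameHom φ act e n = epsF n
  s_act : ∀ n, frameHom φ act s n = sigF n

theorem eps_facts : ∀ n : Fin 4096, epsF (sigF n) = sigF (epsF n) ∧
    epsF (epsF (epsF n)) = n ∧ sigF (sigF (sigF n)) = n := forall_grid (by decide +kernel)

namespace Ctx

variable (h : Ctx q act Mb Cb φ cl)
include h

theorem exists_lifts : ∃ e s, Lifts φ act Mb e s := by
  obtain ⟨e, he, hee⟩ := h.exists_mon (σ := 1) (by simp) sum_eExp
  obtain ⟨s, hs, hss⟩ := h.exists_mon (σ := c012) sign_c012 (ε := 0) (by simp)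
  exact ⟨e, s, he, hs, hee, hss⟩

theorem lifts_stab {e s : K} (hl : Lifts φ act Mb e s) :
    e ∈ stabN φ act ∧ s ∈ stabN φ act ∧ e * s = s * e ∧ e ^ 3 = 1 ∧ s ^ 3 = 1 := by
  refine ⟨?_, ?_, ?_, ?_, ?_⟩
  · rw [mem_stabN, hl.e_act, epsF_n0]
  · rw [mem_stabN, hl.s_act, sigF_n0]
  · apply h.inj; ext n : 1
    simp only [map_mul, Equiv.Perm.mul_apply, hl.e_act, hl.s_act]
    exact (eps_facts n).1
  · apply h.inj; ext n : 1
    simp only [pow_succ, pow_zero, one_mul, map_mul, map_one, Equiv.Perm.mul_apply,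
      Equiv.Perm.one_apply, hl.e_act]
    exact (eps_facts n).2.1
  · apply h.inj; ext n : 1
    simp only [pow_succ, pow_zero, one_mul, map_mul, map_one, Equiv.Perm.mul_apply,
      Equiv.Perm.one_apply, hl.s_act]
    exact (eps_facts n).2.2

/-- The group of order nine generated by the lifts. -/
theorem exists_nine {e s : K} (hl : Lifts φ act Mb e s) :
    ∃ T : Subgroup K, T ≤ stabN φ act ⊓ Mb ∧ IsPGroup 3 ↥T ∧ e ∈ T ∧ s ∈ T := by
  obtain ⟨heS, hsS, hes, he3, hs3⟩ := h.lifts_stab hl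
  haveI : Fact (Nat.Prime 3) := ⟨Nat.prime_three⟩
  have hp : ∀ x : K, x ^ 3 = 1 → IsPGroup 3 ↥(Subgroup.zpowers x) := by
    rintro x hx ⟨y, hy⟩
    refine ⟨1, ?_⟩
    obtain ⟨m, rfl⟩ := Subgroup.mem_zpowers_iff.mp hy
    apply Subtype.ext
    show (x ^ m) ^ (3 ^ 1) = 1
    rw [pow_one, ← zpow_natCast, ← zpow_mul, mul_comm, zpow_mul, zpow_natCast, hx, one_zpow]
  refine ⟨Subgroup.zpowers e ⊔ Subgroup.zpowers s, sup_le (Subgroup.zpowers_le.mpr ⟨heS, hl.e_mem⟩)
    (Subgroup.zpowers_le.mpr ⟨hsS, hl.s_mem⟩), IsPGroup.to_sup_of_normal_right' (hp e he3) (hp s hs3)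
    ?_, Subgroup.mem_sup_left (Subgroup.mem_zpowers e), Subgroup.mem_sup_right (Subgroup.mem_zpowers s)⟩
  rw [Subgroup.zpowers_le]
  apply Subgroup.centralizer_le_normalizer
  rw [Subgroup.mem_centralizer_iff]
  intro y hy
  obtain ⟨m, rfl⟩ := Subgroup.mem_zpowers_iff.mp hy
  exact (Commute.zpow_left (show Commute s e from hes.symm) m).eq

variable (hP : PairData φ act E)
include hP

theorem card_stab : Nat.card ↥(stabN φ act) = 11520 := by
  obtain ⟨ψ, hψ, hker⟩ := hP.quot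
  rw [Subgroup.card_eq_card_quotient_mul_card_subgroup ψ.ker,
    Nat.card_congr (QuotientGroup.quotientKerEquivOfSurjective ψ hψ).toEquiv, card_alt, hker,
    Nat.card_congr (Subgroup.subgroupOfEquivOfLe hP.le).toEquiv, hP.card]

theorem stab_not_le : ¬ stabN φ act ≤ Mb := fun hle => by
  have := Subgroup.card_dvd_of_le hle
  rw [h.card_stab hP, h.card_Mb] at this
  omega

theorem map_stab_inf_eq_top (ψ : ↥(stabN φ act) →* ↥(alternatingGroup (Fin 6)))
    (hψ : Function.Surjective ψ) (hker : ψ.ker = E.subgroupOf (stabN φ act)) :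
    (Mb.subgroupOf (stabN φ act)).map ψ = ⊤ := by
  haveI := h.frame.normal_Mb
  refine normal_alt_eq_top (Subgroup.Normal.map inferInstance ψ hψ) fun hb => ?_
  rw [Subgroup.map_eq_bot_iff, hker] at hb
  haveI : Finite K := Nat.finite_of_card_ne_zero (by rw [h.card_K]; norm_num)
  have hmul := Subgroup.card_mul_index (Mb.subgroupOf (stabN φ act))
  have hidx : (Mb.subgroupOf (stabN φ act)).index ∣ 2 := by
    rw [← h.frame.index_Mb]; exact Subgroup.relIndex_dvd_index_of_normal Mb (stabN φ act)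
  have h2 := Nat.le_of_dvd (by norm_num) hidx
  have h3 : Nat.card ↥(Mb.subgroupOf (stabN φ act)) ≤ 32 := by
    refine le_trans (Nat.le_of_dvd Nat.card_pos (Subgroup.card_dvd_of_le hb)) ?_
    rw [Nat.card_congr (Subgroup.subgroupOfEquivOfLe hP.le).toEquiv, hP.card]
  rw [h.card_stab hP] at hmul
  nlinarith

theorem not_E_le : ¬ E ≤ Mb := fun hle => h.stab_not_le hP fun x hx => by
  obtain ⟨ψ, hψ, hker⟩ := hP.quot
  have h1 : ψ ⟨x, hx⟩ ∈ (Mb.subgroupOf (stabN φ act)).map ψ := by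
    rw [h.map_stab_inf_eq_top hP ψ hψ hker]; exact Subgroup.mem_top _
  obtain ⟨y, hy, hye⟩ := h1
  have h2 : y⁻¹ * ⟨x, hx⟩ ∈ E.subgroupOf (stabN φ act) := by
    rw [← hker, MonoidHom.mem_ker, map_mul, map_inv, hye, inv_mul_cancel]
  simpa using mul_mem (Subgroup.mem_subgroupOf.mp hy) (hle (Subgroup.mem_subgroupOf.mp h2))

theorem card_E16 : Nat.card ↥(E16 Mb E) = 16 := by
  haveI : Finite K := Nat.finite_of_card_ne_zero (by rw [h.card_K]; norm_num)
  haveI := h.frame.normal_Mb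
  have hidx : Mb.relIndex E ∣ 2 := h.frame.index_Mb ▸ Subgroup.relIndex_dvd_index_of_normal Mb E
  have hne : Mb.relIndex E ≠ 1 := fun e => h.not_E_le hP (Subgroup.relIndex_eq_one.mp e)
  have h2 : Mb.relIndex E = 2 := ((Nat.dvd_prime Nat.prime_two).mp hidx).resolve_left hne
  have hmul := Subgroup.card_mul_index (Mb.subgroupOf E)
  rw [← Subgroup.relIndex, h2, hP.card] at hmul
  have : Nat.card ↥(Mb.subgroupOf E) = Nat.card ↥(E16 Mb E) := by
    rw [show E16 Mb E = E ⊓ Mb from rfl, ← Subgroup.inf_subgroupOf_left Mb E,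
      Nat.card_congr (Subgroup.subgroupOfEquivOfLe inf_le_left).toEquiv]
  omega

theorem E16_conj (g : K) (hg : g ∈ stabN φ act) (a : K) (ha : a ∈ E16 Mb E) :
    g * a * g⁻¹ ∈ E16 Mb E :=
  ⟨hP.conj_mem g hg a ha.1, h.frame.normal_Mb.conj_mem a ha.2 g⟩

theorem fixed_trivial {e s : K} (hl : Lifts φ act Mb e s) {c : K}
    (hc : ∀ n, frameHom φ act c n = om n) {a : K} (ha : a ∈ E) (hac : a * c = c * a)
    (hae : a * e = e * a) (has : a * s = s * a) : a = 1 :=
  h.trivial_fix hc hac (hP.sq a ha) (hP.le ha) hl.e_act hl.s_act hae has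

/-- The outer half inverts the scalar. -/
theorem not_central {c : K} (hc : ∀ n, frameHom φ act c n = om n) : ¬ ∀ k, k * c = c * k := by
  intro hall
  obtain ⟨e, s, hl⟩ := h.exists_lifts
  obtain ⟨T, hTle, hT, heT, hsT⟩ := h.exists_nine hl
  haveI : Finite K := Nat.finite_of_card_ne_zero (by rw [h.card_K]; norm_num)
  haveI : Fact (Nat.Prime 3) := ⟨Nat.prime_three⟩
  have hcl : ∀ g ∈ T, ∀ a, (a ∈ E ∧ a ∉ Mb) → (g * a * g⁻¹ ∈ E ∧ g * a * g⁻¹ ∉ Mb) :=
    fun g hg a ha => ⟨hP.conj_mem g (hTle hg).1 _ ha.1, fun hm => ha.2 (by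
      simpa [mul_assoc] using h.frame.normal_Mb.conj_mem _ hm g⁻¹)⟩
  letI := conjAction (S := T) (P := fun a => a ∈ E ∧ a ∉ Mb) hcl
  have hcard : Nat.card {a : K // a ∈ E ∧ a ∉ Mb} = 16 := by
    have h2 : ({a : K | a ∈ E ∧ a ∉ Mb}) = (E : Set K) \ (E16 Mb E : Set K) := by
      ext a
      simp only [Set.mem_ofPred_eq, Set.mem_diff, SetLike.mem_coe, E16, Subgroup.mem_inf]
      tauto
    have h3 : Nat.card {a : K // a ∈ E ∧ a ∉ Mb} = ({a : K | a ∈ E ∧ a ∉ Mb}).ncard :=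
      Nat.card_coe_set_eq _
    rw [h3, h2, Set.ncard_sdiff (show (E16 Mb E : Set K) ⊆ E from fun x hx => hx.1),
      ← Nat.card_coe_set_eq, ← Nat.card_coe_set_eq]
    show Nat.card ↥E - Nat.card ↥(E16 Mb E) = 16
    rw [hP.card, h.card_E16 hP]
  obtain ⟨b, hb⟩ := hT.nonempty_fixed_point_of_prime_not_dvd_card {a : K // a ∈ E ∧ a ∉ Mb}
    (by rw [hcard]; norm_num)
  have hbe : e * b.1 * e⁻¹ = b.1 := congrArg Subtype.val (hb ⟨e, heT⟩)
  have hbs : s * b.1 * s⁻¹ = b.1 := congrArg Subtype.val (hb ⟨s, hsT⟩)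
  exact b.2.2 (by
    rw [h.fixed_trivial hP hl hc b.2.1 (hall _) (mul_inv_eq_iff_eq_mul.mp hbe).symm
      (mul_inv_eq_iff_eq_mul.mp hbs).symm]
    exact one_mem _)

theorem E16_comm_scalar {c : K} (hc : c ∈ Cb) {a : K} (ha : a ∈ E16 Mb E) : a * c = c * a :=
  (h.frame.central c hc a ha.2).symm

/-- An element of the stabiliser centralising `E16` lies in `E`. -/
theorem mem_of_centralizes {g : K} (hg : g ∈ stabN φ act)
    (hga : ∀ a ∈ E16 Mb E, g * a = a * g) : g ∈ E := by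
  haveI : Finite K := Nat.finite_of_card_ne_zero (by rw [h.card_K]; norm_num)
  obtain ⟨ψ, hψ, hker⟩ := hP.quot
  let N : Subgroup ↥(stabN φ act) :=
    (Subgroup.centralizer (E16 Mb E : Set K)).subgroupOf (stabN φ act)
  haveI hN : N.Normal := ⟨fun n hn x => by
    rw [Subgroup.mem_subgroupOf, Subgroup.mem_centralizer_iff] at hn ⊢
    intro a ha
    have h1 := hn _ (h.E16_conj hP _ (inv_mem x.2) a ha)
    rw [inv_inv] at h1
    simp only [Subgroup.coe_mul, Subgroup.coe_inv]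
    calc a * ((x : K) * n * (x : K)⁻¹) = x * (((x : K)⁻¹ * a * x) * n) * (x : K)⁻¹ := by group
      _ = x * (n * ((x : K)⁻¹ * a * x)) * (x : K)⁻¹ := by rw [h1]
      _ = x * n * (x : K)⁻¹ * a := by group⟩
  have hgN : (⟨g, hg⟩ : ↥(stabN φ act)) ∈ N := by
    rw [Subgroup.mem_subgroupOf, Subgroup.mem_centralizer_iff]
    exact fun a ha => (hga a ha).symm
  by_cases hb : N.map ψ = ⊥
  · rw [Subgroup.map_eq_bot_iff, hker] at hb
    exact hb hgN
  exfalso
  have ht := normal_alt_eq_top (hN.map ψ hψ) hb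
  obtain ⟨c, hcC, hc, -, -⟩ := h.scalar'
  obtain ⟨e, s, hl⟩ := h.exists_lifts
  obtain ⟨heS, hsS, -, -, -⟩ := h.lifts_stab hl
  have hcomm : ∀ x : ↥(stabN φ act), ∀ a ∈ E16 Mb E, a * x = x * a := by
    intro x a ha
    obtain ⟨n, hn, hne⟩ : ψ x ∈ N.map ψ := ht ▸ Subgroup.mem_top _
    have h2 : n⁻¹ * x ∈ E.subgroupOf (stabN φ act) := by
      rw [← hker, MonoidHom.mem_ker, map_mul, map_inv, hne, inv_mul_cancel]
    have h3 : a * n = n * a := Subgroup.mem_centralizer_iff.mp (Subgroup.mem_subgroupOf.mp hn) a ha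
    have h4 : a * ((n : K)⁻¹ * x) = ((n : K)⁻¹ * x) * a :=
      hP.comm a ha.1 _ (by simpa using Subgroup.mem_subgroupOf.mp h2)
    calc a * (x : K) = (a * n) * ((n : K)⁻¹ * x) := by group
      _ = n * (a * ((n : K)⁻¹ * x)) := by rw [h3, mul_assoc]
      _ = x * a := by rw [h4]; group
  have : E16 Mb E = ⊥ := by
    rw [Subgroup.eq_bot_iff_forall]
    intro a ha
    exact h.fixed_trivial hP hl hc ha.1 (h.E16_comm_scalar hP hcC ha) (hcomm ⟨e, heS⟩ a ha)
      (hcomm ⟨s, hsS⟩ a ha)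
  have hc16 := h.card_E16 hP
  rw [this, Subgroup.card_bot] at hc16
  omega

/-- The stabiliser is transitive on the involutions of `E16`. -/
theorem transitive {a b : K} (ha : a ∈ E16 Mb E) (ha1 : a ≠ 1) (hb : b ∈ E16 Mb E) (hb1 : b ≠ 1) :
    ∃ g ∈ stabN φ act, g * a * g⁻¹ = b := by
  classical
  haveI : Finite K := Nat.finite_of_card_ne_zero (by rw [h.card_K]; norm_num)
  obtain ⟨c, hcC, hc, -, -⟩ := h.scalar'
  obtain ⟨e, s, hl⟩ := h.exists_lifts
  obtain ⟨heS, hsS, hes, he3, hs3⟩ := h.lifts_stab hl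
  letI := conjAction (S := stabN φ act) (P := fun a => a ∈ E16 Mb E ∧ a ≠ 1) fun g hg a ha =>
    ⟨h.E16_conj hP g hg a ha.1, fun e1 => ha.2 (mul_left_cancel (a := g)
      (by rw [mul_one]; exact mul_inv_eq_one.mp e1))⟩
  let x₀ : {a : K // a ∈ E16 Mb E ∧ a ≠ 1} := ⟨a, ha, ha1⟩
  let O := MulAction.orbit ↥(stabN φ act) x₀
  have hcnt : ∀ F : Subgroup K, Nat.card {a : K // a ∈ F ∧ a ≠ 1} + 1 = Nat.card ↥F := fun F => by
    have h3 : Nat.card {a : K // a ∈ F ∧ a ≠ 1} = ((F : Set K) \ {1}).ncard :=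
      Nat.card_coe_set_eq ((F : Set K) \ {1})
    rw [h3, Set.ncard_sdiff_singleton_add_one (one_mem F), ← Nat.card_coe_set_eq]
    rfl
  have htot : Nat.card {a : K // a ∈ E16 Mb E ∧ a ≠ 1} = 15 := by
    have := hcnt (E16 Mb E)
    rw [h.card_E16 hP] at this
    omega
  -- the orbit has no fixed point under the group of order nine, nor under an element of order five
  haveI : Fact (Nat.Prime 3) := ⟨Nat.prime_three⟩
  haveI : Fact (Nat.Prime 5) := ⟨by norm_num⟩
  obtain ⟨T₀, hTle, hT₀, heT, hsT⟩ := h.exists_nine hl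
  let T : Subgroup ↥(stabN φ act) := T₀.subgroupOf (stabN φ act)
  have hT : IsPGroup 3 ↥T :=
    hT₀.of_equiv (Subgroup.subgroupOfEquivOfLe (le_trans hTle inf_le_left)).symm
  have h3 : 3 ∣ Nat.card O := by
    have hmod := hT.card_modEq_card_fixedPoints O
    have h0 : Nat.card (MulAction.fixedPoints ↥T O) = 0 := by
      rw [Nat.card_eq_zero]
      left
      refine ⟨fun y => ?_⟩
      have hfe := congrArg (fun z : O => z.1.1)
        (y.2 ⟨⟨e, heS⟩, Subgroup.mem_subgroupOf.mpr heT⟩)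
      have hfs := congrArg (fun z : O => z.1.1)
        (y.2 ⟨⟨s, hsS⟩, Subgroup.mem_subgroupOf.mpr hsT⟩)
      exact y.1.1.2.2 (h.fixed_trivial hP hl hc y.1.1.2.1.1 (h.E16_comm_scalar hP hcC y.1.1.2.1)
        (mul_inv_eq_iff_eq_mul.mp hfe).symm (mul_inv_eq_iff_eq_mul.mp hfs).symm)
    rw [h0] at hmod
    exact Nat.modEq_zero_iff_dvd.mp hmod
  obtain ⟨f, hf⟩ := exists_prime_orderOf_dvd_card' (G := ↥(stabN φ act)) 5
    (by rw [h.card_stab hP]; norm_num)
  have hfp : IsPGroup 5 ↥(Subgroup.zpowers f) := IsPGroup.of_card (n := 1) (by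
    rw [Nat.card_zpowers, hf, pow_one])
  have h5 : 5 ∣ Nat.card O := by
    let F : Subgroup K := E16 Mb E ⊓ Subgroup.centralizer {(f : K)}
    have hFd : Nat.card ↥F ∣ 16 := h.card_E16 hP ▸ Subgroup.card_dvd_of_le inf_le_left
    have hmod := hfp.card_modEq_card_fixedPoints {a : K // a ∈ E16 Mb E ∧ a ≠ 1}
    rw [htot] at hmod
    have hfix : Nat.card (MulAction.fixedPoints ↥(Subgroup.zpowers f)
        {a : K // a ∈ E16 Mb E ∧ a ≠ 1}) + 1 = Nat.card ↥F := by
      rw [← hcnt F]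
      congr 1
      refine Nat.card_congr {
        toFun := fun a => ⟨a.1.1, ⟨a.1.2.1, Subgroup.mem_centralizer_singleton_iff.mpr
          (mul_inv_eq_iff_eq_mul.mp (congrArg Subtype.val (a.2 ⟨f, Subgroup.mem_zpowers f⟩))).symm⟩,
          a.1.2.2⟩
        invFun := fun a => ⟨⟨a.1, a.2.1.1, a.2.2⟩, fun g => by
          apply Subtype.ext
          show ((g : ↥(stabN φ act)) : K) * a.1 * ((g : ↥(stabN φ act)) : K)⁻¹ = a.1
          obtain ⟨m, hm⟩ := Subgroup.mem_zpowers_iff.mp g.2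
          rw [← hm, SubgroupClass.coe_zpow]
          have hc' : Commute (f : K) a.1 :=
            (Subgroup.mem_centralizer_singleton_iff.mp a.2.1.2).symm
          rw [(hc'.zpow_left m).eq, mul_inv_cancel_right]⟩
        left_inv := fun _ => rfl
        right_inv := fun _ => rfl }
    have hne16 : Nat.card ↥F ≠ 16 := by
      intro h16
      have : F = E16 Mb E := Subgroup.eq_of_le_of_card_ge inf_le_left (by rw [h16, h.card_E16 hP])
      have hfE := h.mem_of_centralizes hP f.2 fun a ha => by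
        have := (this ▸ ha : a ∈ F).2
        exact (Subgroup.mem_centralizer_singleton_iff.mp this).symm
      have h1 : (f : K) ^ 2 = 1 := by rw [pow_two]; exact hP.sq _ hfE
      have := orderOf_dvd_of_pow_eq_one h1
      rw [← Subgroup.orderOf_coe, ] at hf
      rw [hf] at this
      norm_num at this
    have hF1 : Nat.card ↥F = 1 := by
      have hmem : Nat.card ↥F ∈ Nat.divisors 16 := Nat.mem_divisors.mpr ⟨hFd, by norm_num⟩
      rw [show Nat.divisors 16 = {1, 2, 4, 8, 16} by decide] at hmem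
      simp only [Finset.mem_insert, Finset.mem_singleton] at hmem
      rw [Nat.ModEq] at hmod
      rcases hmem with h' | h' | h' | h' | h' <;> omega
    have hmodO := hfp.card_modEq_card_fixedPoints O
    have h0 : Nat.card (MulAction.fixedPoints ↥(Subgroup.zpowers f) O) = 0 := by
      have hemp : IsEmpty (MulAction.fixedPoints ↥(Subgroup.zpowers f)
          {a : K // a ∈ E16 Mb E ∧ a ≠ 1}) := Finite.card_eq_zero_iff.mp (by omega)
      rw [Nat.card_eq_zero]
      left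
      exact ⟨fun y => hemp.false ⟨y.1.1, fun g => congrArg Subtype.val (y.2 g)⟩⟩
    rw [h0] at hmodO
    exact Nat.modEq_zero_iff_dvd.mp hmodO
  have h15 : Nat.card O = 15 := by
    have hle : Nat.card O ≤ 15 := htot ▸ Nat.card_le_card_of_injective _ Subtype.val_injective
    have hpos : 0 < Nat.card O := by
      haveI : Nonempty O := ⟨⟨x₀, MulAction.mem_orbit_self _⟩⟩
      exact Nat.card_pos
    have := Nat.Coprime.mul_dvd_of_dvd_of_dvd (by norm_num : Nat.Coprime 3 5) h3 h5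
    obtain ⟨m, hm⟩ := this
    omega
  have hall : O = Set.univ := by
    apply Set.eq_of_subset_of_ncard_le (Set.subset_univ _)
    rw [Set.ncard_univ, htot, ← Nat.card_coe_set_eq, h15]
  obtain ⟨g, hg⟩ : (⟨b, hb, hb1⟩ : {a : K // a ∈ E16 Mb E ∧ a ≠ 1}) ∈ O := by
    rw [hall]; exact Set.mem_univ _
  exact ⟨g, g.2, congrArg Subtype.val hg⟩

/-- The stabiliser in the index-two part. -/
theorem commutator_stab : ⁅stabN φ act ⊓ Mb, stabN φ act ⊓ Mb⁆ = stabN φ act ⊓ Mb := by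
  refine le_antisymm (Subgroup.commutator_le_self _) ?_
  haveI := h.frame.normal_Mb
  obtain ⟨c, hcC, hc, -, -⟩ := h.scalar'
  obtain ⟨e, s, hl⟩ := h.exists_lifts
  obtain ⟨heS, hsS, -, -, -⟩ := h.lifts_stab hl
  obtain ⟨ψ, hψ, hker⟩ := hP.quot
  set D := ⁅stabN φ act ⊓ Mb, stabN φ act ⊓ Mb⁆ with hD
  have hDle : D ≤ stabN φ act ⊓ Mb := Subgroup.commutator_le_self _
  have hDconj : ∀ g ∈ stabN φ act, ∀ d ∈ D, g * d * g⁻¹ ∈ D := by
    intro g hg d hd
    have hm : (stabN φ act ⊓ Mb).map (MulAut.conj g).toMonoidHom ≤ stabN φ act ⊓ Mb := by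
      rintro _ ⟨x, hx, rfl⟩
      refine Subgroup.mem_inf.mpr ⟨?_, h.frame.normal_Mb.conj_mem x (Subgroup.mem_inf.mp hx).2 g⟩
      exact (stabN φ act).mul_mem ((stabN φ act).mul_mem hg (Subgroup.mem_inf.mp hx).1) ((stabN φ act).inv_mem hg)
    have : g * d * g⁻¹ ∈ D.map (MulAut.conj g).toMonoidHom := ⟨d, hd, rfl⟩
    rw [hD, Subgroup.map_commutator] at this
    exact Subgroup.commutator_mono hm hm this
  -- a nontrivial element of `E16` in `D`
  obtain ⟨b, hbE, hb1, hbD⟩ : ∃ b, b ∈ E16 Mb E ∧ b ≠ 1 ∧ b ∈ D := by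
    by_contra hno
    push Not at hno
    have key : ∀ g ∈ stabN φ act ⊓ Mb, ∀ a ∈ E16 Mb E, g * a = a * g := by
      intro g hg a ha
      by_contra hne
      have hmem : g * a * g⁻¹ * a⁻¹ ∈ E16 Mb E :=
        mul_mem (h.E16_conj hP g hg.1 a ha) (inv_mem ha)
      refine hno _ hmem (fun e1 => hne ?_) (Subgroup.commutator_mem_commutator hg ⟨hP.le ha.1, ha.2⟩)
      calc g * a = (g * a * g⁻¹ * a⁻¹) * (a * g) := by group
        _ = a * g := by rw [e1, one_mul]
    have he := h.mem_of_centralizes hP heS fun a ha => key e ⟨heS, hl.e_mem⟩ a ha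
    have h1 : e * e = 1 := hP.sq e he
    have h2 : ∀ n, epsF (epsF n) = n := fun n => by
      rw [← hl.e_act, ← hl.e_act, ← Equiv.Perm.mul_apply, ← map_mul, h1, map_one,
        Equiv.Perm.one_apply]
    exact absurd (h2 256) (by decide +kernel)
  have hE16 : E16 Mb E ≤ D := fun a ha => by
    by_cases h1 : a = 1
    · rw [h1]; exact one_mem _
    obtain ⟨g, hg, hge⟩ := h.transitive hP hbE hb1 ha h1
    exact hge ▸ hDconj g hg b hbD
  intro x hx
  have hmap : (D.subgroupOf (stabN φ act)).map ψ = ⊤ := by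
    apply top_unique
    rw [← commutator_alt, ← h.map_stab_inf_eq_top hP ψ hψ hker, ← Subgroup.map_commutator]
    apply Subgroup.map_mono
    rw [Subgroup.commutator_le]
    intro a ha b' hb'
    rw [Subgroup.mem_subgroupOf] at ha hb' ⊢
    exact Subgroup.commutator_mem_commutator ⟨a.2, ha⟩ ⟨b'.2, hb'⟩
  obtain ⟨d, hd, hde⟩ : ψ ⟨x, hx.1⟩ ∈ (D.subgroupOf (stabN φ act)).map ψ :=
    hmap ▸ Subgroup.mem_top _
  have h2 : d⁻¹ * ⟨x, hx.1⟩ ∈ E.subgroupOf (stabN φ act) := by
    rw [← hker, MonoidHom.mem_ker, map_mul, map_inv, hde, inv_mul_cancel]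
  have hd' : (d : K) ∈ D := Subgroup.mem_subgroupOf.mp hd
  have h3 : (d : K)⁻¹ * x ∈ E16 Mb E :=
    Subgroup.mem_inf.mpr ⟨Subgroup.mem_subgroupOf.mp h2, Mb.mul_mem (Mb.inv_mem (Subgroup.mem_inf.mp (hDle hd')).2) (Subgroup.mem_inf.mp hx).2⟩
  simpa using mul_mem hd' (hE16 h3)

end Ctx

end CfsgLib.LargeFischer64
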