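import Cfsg.Prelude.Def_MonsterType
import Cfsg.Prelude.Def_CaseTheorems
import Cfsg.Agent.LargeFischer64.Pair
import Cfsg.Agent.LargeExtraspecial.Pair

/-!
Large Fischer type: the centraliser `C` in `H` of a subgroup `X` of order three mapping onto the
scalars covers the index-two part modulo `⟨z⟩`; if `z` lies in its derived group it is quasisimple
with centre cyclic of order six.
-/

set_option autoImplicit false

namespace CfsgLib.LargeFischer64

open CfsgLib.LargeFischer85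
open scoped commutatorElement

variable {G : Type*} [Group G]

/-- The standing hypotheses. -/
structure Conf (z : G) (Q : Subgroup ↥(Subgroup.centralizer ({z} : Set G))) [Q.Normal]
    (q : V → ZMod 2) (pr : ↥Q → V)
    (act : (↥(Subgroup.centralizer ({z} : Set G)) ⧸ Q) →* Equiv.Perm V)
    (Mb Cb : Subgroup (↥(Subgroup.centralizer ({z} : Set G)) ⧸ Q)) (φ : Fin 4096 ≃ V)
    (cl : ZMod 3) [Cb.Normal] : Prop where
  setting : LargeExtraspecial.Setting (Q.map (Subgroup.centralizer ({z} : Set G)).subtype) z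
  action : IsAction z Q q pr act
  ctx : Ctx q act Mb Cb φ cl
  simple : IsSimpleGroup (↥Mb ⧸ Cb.subgroupOf Mb)

variable {z : G} {Q : Subgroup ↥(Subgroup.centralizer ({z} : Set G))} [Q.Normal]
  {q : V → ZMod 2} {pr : ↥Q → V}
  {act : (↥(Subgroup.centralizer ({z} : Set G)) ⧸ Q) →* Equiv.Perm V}
  {Mb Cb : Subgroup (↥(Subgroup.centralizer ({z} : Set G)) ⧸ Q)} [Cb.Normal]
  {φ : Fin 4096 ≃ V} {cl : ZMod 3}


/-- The coordinates of an element of `Q`. -/
def nu (φ : Fin 4096 ≃ V) (pr : ↥Q → V) (a : ↥Q) : Fin 4096 := φ.symm (pr a)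

/-- The central involution as an element of its centraliser. -/
def zH (z : G) : ↥(Subgroup.centralizer ({z} : Set G)) :=
  ⟨z, Subgroup.mem_centralizer_singleton_iff.mpr rfl⟩

theorem zH_comm (h : ↥(Subgroup.centralizer ({z} : Set G))) : h * zH z = zH z * h :=
  Subtype.ext (Subgroup.mem_centralizer_singleton_iff.mp h.2)

theorem pow_four' (a : G) : a ^ 4 = (a * a) * (a * a) := by
  rw [show 4 = 2 * 2 from rfl, pow_mul, pow_two, pow_two]

namespace Conf

variable (cf : Conf z Q q pr act Mb Cb φ cl)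
include cf

theorem mem_Q {h : ↥(Subgroup.centralizer ({z} : Set G))} :
    (h : G) ∈ Q.map (Subgroup.centralizer ({z} : Set G)).subtype ↔ h ∈ Q :=
  Subgroup.mem_map_iff_mem (Subgroup.subtype_injective _)

theorem zH_mem : zH z ∈ Q := cf.mem_Q.mp cf.setting.z_mem

theorem zH_sq : zH z * zH z = 1 := Subtype.ext cf.setting.z_mul_z

theorem zH_ne : zH z ≠ 1 := fun e => cf.setting.z_ne_one (congrArg Subtype.val e)

theorem nu_eq_zero {a : ↥Q} : nu φ pr a = 0 ↔ (a : ↥(Subgroup.centralizer ({z} : Set G))) = 1 ∨ (a : ↥(Subgroup.centralizer ({z} : Set G))) = zH z := by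
  have h0 : φ.symm 0 = 0 := φ.injective (by rw [φ.apply_symm_apply, cf.ctx.frame.map_zero])
  constructor
  · intro h
    rcases (cf.action.pr_zero a).mp (φ.symm.injective (h.trans h0.symm)) with e | e
    · exact Or.inl (Subtype.ext e)
    · exact Or.inr (Subtype.ext e)
  · intro h
    have : pr a = 0 := (cf.action.pr_zero a).mpr (h.imp (fun e => by rw [e]; rfl)
      fun e => by rw [e]; rfl)
    rw [nu, this, h0]

theorem nu_mul (a b : ↥Q) : nu φ pr (a * b) = vadd (nu φ pr a) (nu φ pr b) := by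
  apply φ.injective
  rw [cf.ctx.frame.map_vadd]
  simp only [nu, Equiv.apply_symm_apply, cf.action.pr_mul]

theorem nu_conj (h : ↥(Subgroup.centralizer ({z} : Set G))) (a b : ↥Q) (e : (b : ↥(Subgroup.centralizer ({z} : Set G))) = h * a * h⁻¹) :
    frameHom φ act (QuotientGroup.mk' Q h) (nu φ pr a) = nu φ pr b := by
  rw [frameHom_apply, nu, nu, Equiv.apply_symm_apply, cf.action.act_pr h a b e]

variable {X : Subgroup ↥(Subgroup.centralizer ({z} : Set G))}

theorem inf_Q_eq_bot (hX : Nat.card ↥X = 3) [Finite G] : X ⊓ Q = ⊥ := by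
  rw [Subgroup.eq_bot_iff_forall]
  intro x hx
  have h3 : orderOf x ∣ 3 := hX ▸ Subgroup.orderOf_dvd_natCard X hx.1
  have h2 : orderOf (x : G) ∣ 2 ^ 2 := by
    apply orderOf_dvd_of_pow_eq_one
    have hxQ : (x : G) ∈ Q.map (Subgroup.centralizer ({z} : Set G)).subtype := cf.mem_Q.mpr hx.2
    rcases (cf.setting.mem_iff _).1 (LargeExtraspecial.sq_mem cf.setting.extraspecial hxQ) with e | e
    · show (x : G) ^ 4 = 1
      rw [pow_four', e, one_mul]
    · show (x : G) ^ 4 = 1
      rw [pow_four', e, cf.setting.z_mul_z]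
  rw [Subgroup.orderOf_coe] at h2
  have := Nat.dvd_gcd h3 h2
  rw [show Nat.gcd 3 (2 ^ 2) = 1 by norm_num, Nat.dvd_one] at this
  exact orderOf_eq_one_iff.mp this

theorem map_X (hX : Nat.card ↥X = 3) (hXQ : (X ⊔ Q).Normal) [Finite G] :
    X.map (QuotientGroup.mk' Q) = Cb := by
  set π := QuotientGroup.mk' Q
  have hcard : Nat.card ↥(X.map π) = 3 := by
    rw [← hX]
    refine (Nat.card_congr (Equiv.ofBijective (π.subgroupMap X) ⟨?_, π.subgroupMap_surjective X⟩)).symm
    rw [← MonoidHom.ker_eq_bot_iff, Subgroup.eq_bot_iff_forall]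
    intro x hx
    have hxQ : (x : ↥(Subgroup.centralizer ({z} : Set G))) ∈ Q := by
      rw [← QuotientGroup.eq_one_iff]
      exact congrArg Subtype.val hx
    have : (x : ↥(Subgroup.centralizer ({z} : Set G))) ∈ X ⊓ Q := ⟨x.2, hxQ⟩
    rw [cf.inf_Q_eq_bot hX, Subgroup.mem_bot] at this
    exact Subtype.ext this
  have hn : (X.map π).Normal := by
    have := hXQ.map π (QuotientGroup.mk'_surjective Q)
    rwa [Subgroup.map_sup, (Subgroup.map_eq_bot_iff Q).mpr (QuotientGroup.ker_mk' Q).ge,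
      sup_bot_eq] at this
  haveI : (Mb).Normal := cf.ctx.frame.normal_Mb
  have hle : X.map π ≤ Mb := by
    intro x hx
    have h3 : x ^ 3 = 1 := orderOf_dvd_iff_pow_eq_one.mp (hcard ▸ Subgroup.orderOf_dvd_natCard _ hx)
    have h2 : x ^ 2 ∈ Mb := by
      have := Subgroup.pow_index_mem Mb x
      rwa [cf.ctx.frame.index_Mb] at this
    have : x = (x ^ 2)⁻¹ := by rw [eq_inv_iff_mul_eq_one, ← pow_succ', h3]
    rw [this]; exact inv_mem h2
  haveI := cf.simple
  have him : ((X.map π).subgroupOf Mb).map (QuotientGroup.mk' (Cb.subgroupOf Mb)) = ⊥ := by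
    refine (Subgroup.Normal.map inferInstance _
      (QuotientGroup.mk'_surjective _)).eq_bot_or_eq_top.resolve_right fun htop => ?_
    have h1 := Subgroup.card_map_dvd ((X.map π).subgroupOf Mb)
      (QuotientGroup.mk' (Cb.subgroupOf Mb))
    rw [htop, Subgroup.card_top, Nat.card_congr (Subgroup.subgroupOfEquivOfLe hle).toEquiv,
      hcard] at h1
    have h2 := Subgroup.card_eq_card_quotient_mul_card_subgroup (Cb.subgroupOf Mb)
    rw [cf.ctx.card_Mb, Nat.card_congr (Subgroup.subgroupOfEquivOfLe cf.ctx.frame.le_Mb).toEquiv,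
      cf.ctx.frame.card_Cb] at h2
    have := Nat.le_of_dvd (by norm_num) h1
    omega
  rw [Subgroup.map_eq_bot_iff, QuotientGroup.ker_mk'] at him
  refine Subgroup.eq_of_le_of_card_ge (fun x hx => ?_) (by rw [hcard, cf.ctx.frame.card_Cb])
  exact him (show (⟨x, hle hx⟩ : ↥Mb) ∈ (X.map π).subgroupOf Mb from hx)

variable (hX : Nat.card ↥X = 3) (hXQ : (X ⊔ Q).Normal) [Finite G]
include hX hXQ

/-- A lift in `X` of the scalar. -/
theorem exists_scalar_lift :
    ∃ x ∈ X, (∀ n, frameHom φ act (QuotientGroup.mk' Q x) n = om n) ∧ Subgroup.zpowers x = X := by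
  obtain ⟨c, hcC, hc, hc1, -⟩ := cf.ctx.scalar'
  rw [← cf.map_X hX hXQ] at hcC
  obtain ⟨x, hx, rfl⟩ := hcC
  refine ⟨x, hx, hc, Subgroup.eq_of_le_of_card_ge (Subgroup.zpowers_le.mpr hx) ?_⟩
  rw [Nat.card_zpowers, hX]
  rcases (Nat.dvd_prime Nat.prime_three).mp (hX ▸ Subgroup.orderOf_dvd_natCard X hx) with h1 | h1
  · exact absurd (by rw [orderOf_eq_one_iff.mp h1, map_one]) hc1
  · omega

theorem centralizer_inf {h : ↥(Subgroup.centralizer ({z} : Set G))} (hh : h ∈ Subgroup.centralizer (X : Set ↥(Subgroup.centralizer ({z} : Set G)))) (hQ : h ∈ Q) :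
    h = 1 ∨ h = zH z := by
  obtain ⟨x, hx, hc, -⟩ := cf.exists_scalar_lift hX hXQ
  have h1 := cf.nu_conj x ⟨h, hQ⟩ ⟨h, hQ⟩ (by
    show h = x * h * x⁻¹
    rw [Subgroup.mem_centralizer_iff.mp hh x hx]; group)
  rw [hc] at h1
  exact cf.nu_eq_zero.mp (om_fixed _ h1)

theorem zH_mem_centralizer : zH z ∈ Subgroup.centralizer (X : Set ↥(Subgroup.centralizer ({z} : Set G))) :=
  Subgroup.mem_centralizer_iff.mpr fun y _ => zH_comm y

/-- The image of the centraliser is the centraliser of the image. -/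
theorem exists_centralizing_lift (h : ↥(Subgroup.centralizer ({z} : Set G)))
    (hc : ∀ x ∈ X, QuotientGroup.mk' Q h * QuotientGroup.mk' Q x =
      QuotientGroup.mk' Q x * QuotientGroup.mk' Q h) :
    ∃ c ∈ Subgroup.centralizer (X : Set ↥(Subgroup.centralizer ({z} : Set G))), QuotientGroup.mk' Q c = QuotientGroup.mk' Q h := by
  set π := QuotientGroup.mk' Q
  have hdisj := cf.inf_Q_eq_bot hX
  -- both `X` and its conjugate are Sylow subgroups of `X ⊔ Q`
  have hmem : X.map (MulAut.conj h).toMonoidHom ≤ X ⊔ Q := by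
    rintro _ ⟨x, hx, rfl⟩
    exact hXQ.conj_mem x (Subgroup.mem_sup_left hx) h
  have hker : ∀ {S : Subgroup ↥(Subgroup.centralizer ({z} : Set G))}, Nat.card ↥S = 3 → S ≤ X ⊔ Q →
      Nat.card ↥(S.subgroupOf (X ⊔ Q)) = 3 ^ (Nat.card ↥(X ⊔ Q)).factorization 3 := by
    intro S hS hle
    have hprod : Nat.card ↥(X ⊔ Q) = 3 * Nat.card ↥Q := by
      rw [← hX, sup_comm]
      have h1 := Subgroup.card_mul_index (Q.subgroupOf (Q ⊔ X))
      rw [Nat.card_congr (Subgroup.subgroupOfEquivOfLe le_sup_left).toEquiv, ← Subgroup.relIndex,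
        Subgroup.relIndex_sup_left, ← Subgroup.inf_relIndex_right, inf_comm, hdisj,
        Subgroup.relIndex_bot_left] at h1
      rw [← h1, mul_comm]
    have hQ2 : ¬ 3 ∣ Nat.card ↥Q := by
      intro hd
      obtain ⟨a, ha⟩ := exists_prime_orderOf_dvd_card' (G := ↥Q) 3 (hp := ⟨Nat.prime_three⟩) hd
      have haQ : ((a : ↥(Subgroup.centralizer ({z} : Set G))) : G) ∈ Q.map (Subgroup.centralizer ({z} : Set G)).subtype :=
        cf.mem_Q.mpr a.2
      have h4 : orderOf ((a : ↥(Subgroup.centralizer ({z} : Set G))) : G) ∣ 4 := by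
        apply orderOf_dvd_of_pow_eq_one
        rcases (cf.setting.mem_iff _).1 (LargeExtraspecial.sq_mem cf.setting.extraspecial haQ) with e | e
        · rw [pow_four', e, one_mul]
        · rw [pow_four', e, cf.setting.z_mul_z]
      rw [Subgroup.orderOf_coe, Subgroup.orderOf_coe, ha] at h4
      omega
    rw [Nat.card_congr (Subgroup.subgroupOfEquivOfLe hle).toEquiv, hS, hprod,
      Nat.factorization_mul (by norm_num) (Nat.card_pos.ne'), Finsupp.add_apply,
      Nat.Prime.factorization_self Nat.prime_three, Nat.factorization_eq_zero_of_not_dvd hQ2]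
    norm_num
  haveI : Fact (Nat.Prime 3) := ⟨Nat.prime_three⟩
  have hconj : Nat.card ↥(X.map (MulAut.conj h).toMonoidHom) = 3 := by
    rw [Subgroup.card_map_of_injective (MulAut.conj h).injective, hX]
  let P1 := Sylow.ofCard _ (hker hconj hmem)
  let P2 := Sylow.ofCard _ (hker hX le_sup_left)
  obtain ⟨g, hg⟩ := MulAction.exists_smul_eq ↥(X ⊔ Q) P1 P2
  obtain ⟨⟨a, ha⟩, ⟨b, hb⟩, hab⟩ :
      ∃ (a : ↥X) (b : ↥Q), ((a : ↥(Subgroup.centralizer ({z} : Set G))) * b) = (g : ↥(Subgroup.centralizer ({z} : Set G))) := by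
    have := g.2
    rw [← SetLike.mem_coe, Subgroup.mul_normal X Q] at this
    obtain ⟨a, ha, b, hb, e⟩ := this
    exact ⟨⟨a, ha⟩, ⟨b, hb⟩, e⟩
  have key : ∀ y ∈ X, (b * h) * y * (b * h)⁻¹ ∈ X := by
    intro y hy
    let w : ↥(X ⊔ Q) := ⟨h * y * h⁻¹, hmem ⟨y, hy, rfl⟩⟩
    have h1 : g * w * g⁻¹ ∈ (g • P1 : Sylow 3 ↥(X ⊔ Q)).toSubgroup :=
      ⟨w, show (w : ↥(Subgroup.centralizer ({z} : Set G))) ∈ X.map (MulAut.conj h).toMonoidHom from ⟨y, hy, rfl⟩, rfl⟩
    rw [hg] at h1
    have h2 : ((g * w * g⁻¹ : ↥(X ⊔ Q)) : ↥(Subgroup.centralizer ({z} : Set G))) ∈ X := h1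
    have h3 : a⁻¹ * ((g * w * g⁻¹ : ↥(X ⊔ Q)) : ↥(Subgroup.centralizer ({z} : Set G))) * a ∈ X :=
      mul_mem (mul_mem (inv_mem ha) h2) ha
    convert h3 using 1
    simp only [Subgroup.coe_mul, InvMemClass.coe_inv, ← hab, w]
    group
  refine ⟨b * h, Subgroup.mem_centralizer_iff.mpr fun y hy => ?_, ?_⟩
  · have hd : y⁻¹ * ((b * h) * y * (b * h)⁻¹) ∈ X ⊓ Q := by
      refine Subgroup.mem_inf.mpr ⟨mul_mem (inv_mem hy) (key y hy), ?_⟩
      rw [← QuotientGroup.eq_one_iff]
      show π (y⁻¹ * ((b * h) * y * (b * h)⁻¹)) = 1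
      have hb1 : π b = 1 := (QuotientGroup.eq_one_iff b).mpr hb
      simp only [map_mul, map_inv, hb1, one_mul]
      rw [hc y hy]; group
    rw [hdisj, Subgroup.mem_bot] at hd
    calc y * (b * h) = y * (y⁻¹ * ((b * h) * y * (b * h)⁻¹)) * (b * h) := by rw [hd, mul_one]
      _ = (b * h) * y := by group
  · rw [map_mul, show π b = 1 from (QuotientGroup.eq_one_iff b).mpr hb, one_mul]

theorem map_centralizer {E : Subgroup (↥(Subgroup.centralizer ({z} : Set G)) ⧸ Q)} (hP : PairData φ act E) :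
    (Subgroup.centralizer (X : Set ↥(Subgroup.centralizer ({z} : Set G)))).map (QuotientGroup.mk' Q) = Mb := by
  set π := QuotientGroup.mk' Q
  obtain ⟨x, hx, hcx, hzx⟩ := cf.exists_scalar_lift hX hXQ
  have hxC : π x ∈ Cb := cf.map_X hX hXQ ▸ Subgroup.mem_map_of_mem π hx
  apply le_antisymm
  · rintro _ ⟨h, hh, rfl⟩
    by_contra hnM
    refine cf.ctx.not_central hP hcx fun k => ?_
    have hhx : π h * π x = π x * π h := by
      rw [← map_mul, ← map_mul, (Subgroup.mem_centralizer_iff.mp hh x hx)]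
    by_cases hk : k ∈ Mb
    · exact (cf.ctx.frame.central _ hxC k hk).symm
    · have hm : k * π h ∈ Mb := by
        rw [Subgroup.mul_mem_iff_of_index_two cf.ctx.frame.index_Mb]
        exact iff_of_false hk hnM
      calc k * π x = (k * π h) * (π h)⁻¹ * π x := by group
        _ = (k * π h) * (π x * (π h)⁻¹) := by
            rw [mul_assoc, ← (Commute.inv_left (a := π h) (b := π x) hhx).eq]
        _ = π x * ((k * π h) * (π h)⁻¹) := by
            rw [← mul_assoc, ← cf.ctx.frame.central _ hxC _ hm, mul_assoc]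
        _ = π x * k := by group
  · intro k hk
    obtain ⟨h, rfl⟩ := QuotientGroup.mk'_surjective Q k
    obtain ⟨c, hc, hce⟩ := cf.exists_centralizing_lift hX hXQ h fun y hy =>
      (cf.ctx.frame.central _ (cf.map_X hX hXQ ▸ Subgroup.mem_map_of_mem π hy) _ hk).symm
    exact ⟨c, hc, hce⟩

/-- The conclusion, given that `z` is in the derived group of the centraliser. -/
theorem conclusion {E : Subgroup (↥(Subgroup.centralizer ({z} : Set G)) ⧸ Q)} (hP : PairData φ act E)
    (hz : zH z ∈ ⁅Subgroup.centralizer (X : Set ↥(Subgroup.centralizer ({z} : Set G))), Subgroup.centralizer (X : Set ↥(Subgroup.centralizer ({z} : Set G)))⁆) :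
    Cfsg.IsQuasisimple ↥(Subgroup.centralizer (X : Set ↥(Subgroup.centralizer ({z} : Set G)))) ∧
      IsCyclic ↥(Subgroup.center ↥(Subgroup.centralizer (X : Set ↥(Subgroup.centralizer ({z} : Set G))))) ∧
      Nat.card ↥(Subgroup.center ↥(Subgroup.centralizer (X : Set ↥(Subgroup.centralizer ({z} : Set G))))) = 6 ∧
      Nonempty (↥(Subgroup.centralizer (X : Set ↥(Subgroup.centralizer ({z} : Set G)))) ⧸
        Subgroup.center ↥(Subgroup.centralizer (X : Set ↥(Subgroup.centralizer ({z} : Set G)))) ≃* ↥Mb ⧸ Cb.subgroupOf Mb) := by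
  set C := Subgroup.centralizer (X : Set ↥(Subgroup.centralizer ({z} : Set G))) with hC
  set π := QuotientGroup.mk' Q
  have hmap := cf.map_centralizer hX hXQ hP
  let ρ : ↥C →* ↥Mb ⧸ Cb.subgroupOf Mb := (QuotientGroup.mk' (Cb.subgroupOf Mb)).comp
    { toFun := fun c => ⟨π c, hmap ▸ Subgroup.mem_map_of_mem π c.2⟩
      map_one' := Subtype.ext (map_one π)
      map_mul' := fun a b => Subtype.ext (map_mul π a.1 b.1) }
  have hρ : Function.Surjective ρ := by
    intro y
    obtain ⟨⟨k, hk⟩, rfl⟩ := QuotientGroup.mk'_surjective _ y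
    rw [← hmap] at hk
    obtain ⟨c, hc, rfl⟩ := hk
    exact ⟨⟨c, hc⟩, rfl⟩
  obtain ⟨x, hx, hcx, hzx⟩ := cf.exists_scalar_lift hX hXQ
  have hxC : x ∈ C := Subgroup.mem_centralizer_iff.mpr fun y hy => by
    rw [← hzx] at hy
    obtain ⟨m, rfl⟩ := Subgroup.mem_zpowers_iff.mp hy
    exact (Commute.zpow_self x m).eq
  have hx3 : orderOf x = 3 := by rw [← Nat.card_zpowers, hzx, hX]
  have hz2 : orderOf (zH z) = 2 :=
    orderOf_eq_prime (by rw [pow_two]; exact cf.zH_sq) cf.zH_ne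
  let w : ↥C := ⟨x * zH z, mul_mem hxC (cf.zH_mem_centralizer hX hXQ)⟩
  have hkin : ∀ c : ↥C, π c ∈ Cb → c ∈ Subgroup.zpowers w := by
    intro c hc
    rw [← cf.map_X hX hXQ] at hc
    obtain ⟨y, hy, hye⟩ := hc
    have hyC : y ∈ C := Subgroup.mem_centralizer_iff.mpr fun y' hy' => by
      rw [← hzx] at hy hy'
      obtain ⟨m, rfl⟩ := Subgroup.mem_zpowers_iff.mp hy
      obtain ⟨m', rfl⟩ := Subgroup.mem_zpowers_iff.mp hy'
      exact (Commute.zpow_zpow_self x m' m).eq
    have hQ' : y⁻¹ * c ∈ Q := by rw [← QuotientGroup.eq]; exact hye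
    have hw3 : w ^ 3 = ⟨zH z, cf.zH_mem_centralizer hX hXQ⟩ := by
      apply Subtype.ext
      show (x * zH z) ^ 3 = zH z
      rw [(show Commute x (zH z) from zH_comm x).mul_pow, ← hx3, pow_orderOf_eq_one, one_mul, hx3,
        pow_succ, pow_two, cf.zH_sq, one_mul]
    have hw4 : w ^ 4 = ⟨x, hxC⟩ := by
      apply Subtype.ext
      show (x * zH z) ^ 4 = x
      rw [(show Commute x (zH z) from zH_comm x).mul_pow,
        pow_four' (zH z), cf.zH_sq, one_mul, mul_one,
        pow_succ, ← hx3, pow_orderOf_eq_one, one_mul]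
    have hyw : (⟨y, hyC⟩ : ↥C) ∈ Subgroup.zpowers w := by
      rw [← hzx] at hy
      obtain ⟨m, rfl⟩ := Subgroup.mem_zpowers_iff.mp hy
      have : (⟨x ^ m, hyC⟩ : ↥C) = (⟨x, hxC⟩ : ↥C) ^ m := Subtype.ext (by simp)
      rw [this, ← hw4]
      exact zpow_mem (pow_mem (Subgroup.mem_zpowers w) 4) m
    have hzw : (⟨y, hyC⟩ : ↥C)⁻¹ * c ∈ Subgroup.zpowers w := by
      rcases cf.centralizer_inf hX hXQ (mul_mem (inv_mem hyC) c.2) hQ' with e | e
      · rw [show (⟨y, hyC⟩ : ↥C)⁻¹ * c = 1 from Subtype.ext e]; exact one_mem _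
      · rw [show (⟨y, hyC⟩ : ↥C)⁻¹ * c = w ^ 3 from hw3 ▸ Subtype.ext e]
        exact pow_mem (Subgroup.mem_zpowers w) 3
    simpa using mul_mem hyw hzw
  have hcen : Subgroup.center ↥C = Subgroup.zpowers w := by
    refine le_antisymm (fun c hc => hkin c ?_) (Subgroup.zpowers_le.mpr ?_)
    · refine cf.ctx.centre_le cf.simple (hmap ▸ Subgroup.mem_map_of_mem π c.2) fun m hm => ?_
      rw [← hmap] at hm
      obtain ⟨d, hd, rfl⟩ := hm
      have e : d * (c : ↥(Subgroup.centralizer ({z} : Set G))) = c * d :=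
        congrArg Subtype.val (Subgroup.mem_center_iff.mp hc ⟨d, hd⟩)
      rw [← map_mul, ← map_mul, e]
    · rw [Subgroup.mem_center_iff]
      intro d
      apply Subtype.ext
      show (d : ↥(Subgroup.centralizer ({z} : Set G))) * (x * zH z) = x * zH z * d
      rw [← mul_assoc, ← (Subgroup.mem_centralizer_iff.mp d.2 x hx), mul_assoc, zH_comm, mul_assoc]
  have hker : ρ.ker = Subgroup.center ↥C := by
    ext c
    rw [hcen]
    constructor
    · intro hc
      exact hkin c (Subgroup.mem_subgroupOf.mp ((QuotientGroup.eq_one_iff _).mp (MonoidHom.mem_ker.mp hc)))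
    · intro hc
      refine (Subgroup.zpowers_le.mpr ?_ : Subgroup.zpowers w ≤ ρ.ker) hc
      refine (QuotientGroup.eq_one_iff _).mpr ?_
      show π (x * zH z) ∈ Cb
      rw [map_mul, show π (zH z) = 1 from (QuotientGroup.eq_one_iff _).mpr cf.zH_mem, mul_one]
      exact cf.map_X hX hXQ ▸ Subgroup.mem_map_of_mem π hx
  let eqv : ↥C ⧸ Subgroup.center ↥C ≃* ↥Mb ⧸ Cb.subgroupOf Mb :=
    (QuotientGroup.quotientMulEquivOfEq hker.symm).trans
      (QuotientGroup.quotientKerEquivOfSurjective ρ hρ)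
  haveI := cf.simple
  haveI : Nontrivial (↥C ⧸ Subgroup.center ↥C) := eqv.toEquiv.nontrivial
  refine ⟨⟨?_, IsSimpleGroup.isSimpleGroup_of_surjective eqv.symm.toMonoidHom eqv.symm.surjective⟩,
    ?_, ?_, ⟨eqv⟩⟩
  · rw [Subgroup.isPerfect_iff]
    refine le_antisymm (Subgroup.commutator_le_self C) fun c hc => ?_
    have h1 : π c ∈ ⁅C, C⁆.map π := by
      rw [Subgroup.map_commutator, hmap, cf.ctx.commutator_eq cf.simple, ← hmap]
      exact Subgroup.mem_map_of_mem π hc
    obtain ⟨d, hd, hde⟩ := h1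
    have hQ' : d⁻¹ * c ∈ Q := by rw [← QuotientGroup.eq]; exact hde
    rcases cf.centralizer_inf hX hXQ (mul_mem (inv_mem (Subgroup.commutator_le_self C hd)) hc) hQ'
      with e | e
    · rw [show c = d by rw [inv_mul_eq_one] at e; exact e.symm]; exact hd
    · rw [show c = d * zH z by rw [← e]; group]; exact mul_mem hd hz
  · rw [hcen]; infer_instance
  · rw [hcen, Nat.card_zpowers, ← Subgroup.orderOf_coe]
    show orderOf (x * zH z) = 6
    rw [(show Commute x (zH z) from zH_comm x).orderOf_mul_eq_mul_orderOf_of_coprime (by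
      rw [hx3, hz2]; norm_num), hx3, hz2]

end Conf

end CfsgLib.LargeFischer64
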