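import Cfsg.Agent.LargeFischer64.Local
import Cfsg.Agent.LargeFischer85.FrameDefs

/-!
Large Fischer type: consequences of a frame for the index-two part of `H/Q`: it is perfect, its
centre is the subgroup of order three, and an involution fixing the standard vector and commuting
with two monomial elements of order three is trivial.
-/

set_option autoImplicit false

namespace CfsgLib.LargeFischer64

open CfsgLib.LargeFischer85
open scoped commutatorElement

/-- The hypotheses on `H/Q` in frame coordinates. -/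
structure Ctx {K : Type*} [Group K] (q : V → ZMod 2) (act : K →* Equiv.Perm V)
    (Mb Cb : Subgroup K) (φ : Fin 4096 ≃ V) (cl : ZMod 3) : Prop where
  frame : IsFrame q act Mb Cb φ
  act_add : ∀ k v w, act k (v + w) = act k v + act k w
  act_q : ∀ k v, q (act k v) = q v
  act_inj : Function.Injective act
  orbits : IsOrbitClass (Mb.map (frameHom φ act)) cl

variable {K : Type*} [Group K] {q : V → ZMod 2} {act : K →* Equiv.Perm V} {Mb Cb : Subgroup K}
  {φ : Fin 4096 ≃ V} {cl : ZMod 3}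

local notation "𝔉" => frameHom φ act

theorem vadd_self : ∀ a : Fin 4096, vadd a a = 0 := forall_grid (by decide +kernel)

theorem om_fixed : ∀ a : Fin 4096, om a = a → a = 0 := forall_grid (by decide +kernel)

theorem om_sum : ∀ a : Fin 4096, vadd a (vadd (om a) (om (om a))) = 0 ∧ om (om (om a)) = a :=
  forall_grid (by decide +kernel)

namespace Ctx

variable (h : Ctx q act Mb Cb φ cl)
include h

theorem map_vadd (k : K) (a b : Fin 4096) : 𝔉 k (vadd a b) = vadd (𝔉 k a) (𝔉 k b) := by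
  apply φ.injective
  rw [h.frame.map_vadd]
  simp only [frameHom_apply, Equiv.apply_symm_apply, h.frame.map_vadd, h.act_add]

theorem map_zero (k : K) : 𝔉 k 0 = 0 := by
  have := h.map_vadd k 0 0
  rwa [vadd_self, vadd_self] at this

theorem map_sing (k : K) (a : Fin 4096) : sing (𝔉 k a) ↔ sing a := by
  rw [h.frame.sing_iff, h.frame.sing_iff, frameHom_apply, Equiv.apply_symm_apply, h.act_q]

theorem inj : Function.Injective 𝔉 := frameHom_injective φ h.act_inj

theorem map_one' (k : K) (n : Fin 4096) : inOne cl (𝔉 k n) ↔ inOne cl n := by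
  refine h.orbits.stable (𝔉 k) (h.map_zero k) (h.map_sing k) ?_ n
  rintro m ⟨m₀, hm₀, rfl⟩
  exact ⟨k * m₀ * k⁻¹, h.frame.normal_Mb.conj_mem _ hm₀ k, by rw [map_mul, map_mul, map_inv]⟩

theorem map_om {k : K} {c : K} (hc : ∀ n, 𝔉 c n = om n) (hk : k * c = c * k) (n : Fin 4096) :
    𝔉 k (om n) = om (𝔉 k n) := by
  rw [← hc n, ← hc (𝔉 k n), ← Equiv.Perm.mul_apply, ← Equiv.Perm.mul_apply, ← map_mul, ← map_mul,
    hk]

theorem scalar' : ∃ c ∈ Cb, (∀ n, 𝔉 c n = om n) ∧ c ≠ 1 ∧ Subgroup.zpowers c = Cb := by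
  obtain ⟨c, hcC, hc⟩ := h.frame.scalar
  have hne : c ≠ 1 := fun e => by
    have h1 := hc 85
    rw [e, map_one, Equiv.Perm.one_apply] at h1
    exact absurd (om_fixed 85 h1.symm) (by decide)
  refine ⟨c, hcC, hc, hne, ?_⟩
  haveI : Finite ↥Cb := Nat.finite_of_card_ne_zero (by rw [h.frame.card_Cb]; norm_num)
  refine Subgroup.eq_of_le_of_card_ge (Subgroup.zpowers_le.mpr hcC) ?_
  rw [h.frame.card_Cb, Nat.card_zpowers]
  have hd : orderOf c ∣ 3 := h.frame.card_Cb ▸ Subgroup.orderOf_dvd_natCard _ hcC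
  rcases (Nat.dvd_prime Nat.prime_three).mp hd with h1 | h1
  · exact absurd (orderOf_eq_one_iff.mp h1) hne
  · omega

theorem exists_mon {σ : Equiv.Perm (Fin 6)} (hσ : Equiv.Perm.sign σ = 1) {ε : Fin 6 → ZMod 3}
    (hε : ∑ i, ε i = 0) : ∃ m ∈ Mb, ∀ n, 𝔉 m n = monF σ ε n := by
  obtain ⟨m, ⟨m₀, hm₀, rfl⟩, hm⟩ := h.frame.group.mon σ hσ ε hε
  exact ⟨m₀, hm₀, hm⟩

theorem card_Mb : Nat.card ↥Mb = 9797760 := by
  rw [← Subgroup.card_map_of_injective h.inj, h.frame.group.card]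

theorem card_K : Nat.card K = 19595520 := by
  have := Subgroup.card_mul_index Mb
  rw [h.card_Mb, h.frame.index_Mb] at this
  omega

/-- An element of the index-two part in the scalar's centraliser which is an involution fixing `n0`
and commutes with the two monomial elements is trivial. -/
theorem trivial_fix {k e s c : K} (hc : ∀ n, 𝔉 c n = om n) (hkc : k * c = c * k) (hk : k * k = 1)
    (hn : 𝔉 k n0 = n0) (he : ∀ n, 𝔉 e n = epsF n) (hs : ∀ n, 𝔉 s n = sigF n) (hke : k * e = e * k)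
    (hks : k * s = s * k) : k = 1 := by
  apply h.inj
  ext n : 1
  rw [map_one, Equiv.Perm.one_apply]
  refine trivial_of_centralizes (k := cl) (h.map_vadd k) (h.map_om hc hkc) (h.map_zero k) (fun a => ?_)
    (h.map_sing k) (h.map_one' k) hn (fun a => ?_) (fun a => ?_) n
  · rw [← Equiv.Perm.mul_apply, ← map_mul, hk, map_one, Equiv.Perm.one_apply]
  · rw [← he a, ← he (𝔉 k a), ← Equiv.Perm.mul_apply, ← Equiv.Perm.mul_apply, ← map_mul,
      ← map_mul, hke]
  · rw [← hs a, ← hs (𝔉 k a), ← Equiv.Perm.mul_apply, ← Equiv.Perm.mul_apply, ← map_mul,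
      ← map_mul, hks]

theorem scalar_mem_commutator {c : K} (hc : ∀ n, 𝔉 c n = om n) : c ∈ ⁅Mb, Mb⁆ := by
  have step : ∀ d : Fin 4, ∃ r ∈ ⁅Mb, Mb⁆, ∀ n, 𝔉 r n = monF 1 (dExp d) n := by
    intro d
    obtain ⟨h1, h2, h3⟩ := dData_ok d
    obtain ⟨p, hp, hpF⟩ := h.exists_mon (σ := dPerm d) h2 (ε := 0) (by simp)
    obtain ⟨t, ht, htF⟩ := h.exists_mon (σ := 1) (by simp) h3
    obtain ⟨r, hr, hrF⟩ := h.exists_mon (σ := 1) (by simp) h1
    have he : p * t = r * t * p := by
      apply h.inj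
      ext n : 1
      simp only [map_mul, Equiv.Perm.mul_apply, hpF, htF, hrF, dData_eq]
    refine ⟨p * t * p⁻¹ * t⁻¹, Subgroup.commutator_mem_commutator hp ht, fun n => ?_⟩
    have : p * t * p⁻¹ * t⁻¹ = r := by rw [he]; group
    rw [this, hrF]
  obtain ⟨r0, m0, f0⟩ := step 0
  obtain ⟨r1, m1, f1⟩ := step 1
  obtain ⟨r2, m2, f2⟩ := step 2
  obtain ⟨r3, m3, f3⟩ := step 3
  have : c = r0 * r1 * r2 * r3 := by
    apply h.inj
    ext n : 1
    simp only [map_mul, Equiv.Perm.mul_apply, f0, f1, f2, f3, hc, dData_prod]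
  rw [this]
  exact mul_mem (mul_mem (mul_mem m0 m1) m2) m3

theorem commutator_eq [Cb.Normal] (hs : IsSimpleGroup (↥Mb ⧸ Cb.subgroupOf Mb)) : ⁅Mb, Mb⁆ = Mb := by
  haveI := hs
  refine le_antisymm (Subgroup.commutator_le_self Mb) ?_
  obtain ⟨c, hcC, hc, -, hzc⟩ := h.scalar'
  have hCle : Cb ≤ ⁅Mb, Mb⁆ := by
    rw [← hzc]; exact Subgroup.zpowers_le.mpr (h.scalar_mem_commutator hc)
  have hmap : ∀ x : ↥Mb, x ∈ commutator ↥Mb → (x : K) ∈ ⁅Mb, Mb⁆ := by
    intro x hx
    rw [← Subgroup.map_subtype_commutator]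
    exact ⟨x, hx, rfl⟩
  set π := QuotientGroup.mk' (Cb.subgroupOf Mb)
  rcases (Subgroup.Normal.map (inferInstance : (commutator ↥Mb).Normal) π
      (QuotientGroup.mk'_surjective _)).eq_bot_or_eq_top with hb | ht
  · exfalso
    have hab : ∀ a b : ↥Mb ⧸ Cb.subgroupOf Mb, a * b = b * a := by
      intro a b
      obtain ⟨x, rfl⟩ := QuotientGroup.mk'_surjective _ a
      obtain ⟨y, rfl⟩ := QuotientGroup.mk'_surjective _ b
      have h1 : π ⁅x, y⁆ ∈ (commutator ↥Mb).map π :=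
        Subgroup.mem_map_of_mem π (Subgroup.commutator_mem_commutator (Subgroup.mem_top _)
          (Subgroup.mem_top _))
      rw [hb, Subgroup.mem_bot, map_commutatorElement, commutatorElement_eq_one_iff_mul_comm] at h1
      exact h1
    haveI : Finite ↥Mb := Nat.finite_of_card_ne_zero (by rw [h.card_Mb]; norm_num)
    letI : CommGroup (↥Mb ⧸ Cb.subgroupOf Mb) := { mul_comm := hab }
    have hp := IsSimpleGroup.prime_card (α := ↥Mb ⧸ Cb.subgroupOf Mb)
    have hcard := Subgroup.card_eq_card_quotient_mul_card_subgroup (Cb.subgroupOf Mb)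
    rw [h.card_Mb, Nat.card_congr (Subgroup.subgroupOfEquivOfLe h.frame.le_Mb).toEquiv,
      h.frame.card_Cb] at hcard
    have : Nat.card (↥Mb ⧸ Cb.subgroupOf Mb) = 3265920 := by omega
    rw [this] at hp
    exact absurd hp (by norm_num)
  · intro x hx
    obtain ⟨y, hy, hye⟩ : (π ⟨x, hx⟩) ∈ (commutator ↥Mb).map π := ht ▸ Subgroup.mem_top _
    have h1 : y⁻¹ * ⟨x, hx⟩ ∈ Cb.subgroupOf Mb := by
      rw [← QuotientGroup.eq]; exact hye
    have h2 : (y : K)⁻¹ * x ∈ ⁅Mb, Mb⁆ := hCle h1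
    simpa using mul_mem (hmap y hy) h2

theorem centre_le [Cb.Normal] (hs : IsSimpleGroup (↥Mb ⧸ Cb.subgroupOf Mb)) {k : K} (hk : k ∈ Mb)
    (hcent : ∀ m ∈ Mb, k * m = m * k) : k ∈ Cb := by
  haveI := hs
  by_contra hkC
  set π := QuotientGroup.mk' (Cb.subgroupOf Mb)
  have hne : π ⟨k, hk⟩ ≠ 1 := fun e => hkC ((QuotientGroup.eq_one_iff (⟨k, hk⟩ : ↥Mb)).mp e)
  have hz : π ⟨k, hk⟩ ∈ Subgroup.center (↥Mb ⧸ Cb.subgroupOf Mb) := by
    rw [Subgroup.mem_center_iff]
    intro b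
    obtain ⟨m, rfl⟩ := QuotientGroup.mk'_surjective _ b
    rw [← map_mul, ← map_mul]
    exact congrArg π (Subtype.ext (hcent m m.2).symm)
  rcases (inferInstance : (Subgroup.center (↥Mb ⧸ Cb.subgroupOf Mb)).Normal).eq_bot_or_eq_top
    with hb | ht
  · rw [hb, Subgroup.mem_bot] at hz; exact hne hz
  · haveI : Finite ↥Mb := Nat.finite_of_card_ne_zero (by rw [h.card_Mb]; norm_num)
    letI : CommGroup (↥Mb ⧸ Cb.subgroupOf Mb) :=
      { mul_comm := fun a b => (Subgroup.mem_center_iff.mp (ht ▸ Subgroup.mem_top b) a) }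
    have hp := IsSimpleGroup.prime_card (α := ↥Mb ⧸ Cb.subgroupOf Mb)
    have hcard := Subgroup.card_eq_card_quotient_mul_card_subgroup (Cb.subgroupOf Mb)
    rw [h.card_Mb, Nat.card_congr (Subgroup.subgroupOfEquivOfLe h.frame.le_Mb).toEquiv,
      h.frame.card_Cb] at hcard
    have : Nat.card (↥Mb ⧸ Cb.subgroupOf Mb) = 3265920 := by omega
    rw [this] at hp
    exact absurd hp (by norm_num)

end Ctx

end CfsgLib.LargeFischer64
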