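import Cfsg.Agent.LargeFischer64.Twin

/-!
Large Fischer type: if `z` is outside the derived group `D` of the centraliser of the element of order
three, `D` maps isomorphically onto the index-two part, and after conjugation by an element of `Q` the
part of `D` over the group of order sixteen lies in the conjugate of `Q`.
-/

set_option autoImplicit false

namespace CfsgLib.LargeFischer64

open CfsgLib.LargeFischer85
open scoped commutatorElement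

variable {G : Type*} [Group G] [Finite G] {z : G} {Q : Subgroup ↥(Cz z)} [Q.Normal]
  {q : V → ZMod 2} {pr : ↥Q → V} {act : (↥(Cz z) ⧸ Q) →* Equiv.Perm V}
  {Mb Cb : Subgroup (↥(Cz z) ⧸ Q)} [Cb.Normal] {φ : Fin 4096 ≃ V} {cl : ZMod 3}
  {g : G} {a a' : ↥Q} {X : Subgroup ↥(Cz z)}

/-- The derived group of the centraliser. -/
def Dgp (X : Subgroup ↥(Cz z)) : Subgroup ↥(Cz z) :=
  ⁅Subgroup.centralizer (X : Set ↥(Cz z)), Subgroup.centralizer (X : Set ↥(Cz z))⁆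

/-- The part of the derived group over the stabiliser. -/
def Pgp (Q : Subgroup ↥(Cz z)) [Q.Normal] (φ : Fin 4096 ≃ V)
    (act : (↥(Cz z) ⧸ Q) →* Equiv.Perm V) (X : Subgroup ↥(Cz z)) : Subgroup ↥(Cz z) :=
  Dgp X ⊓ (stabN φ act).comap (QuotientGroup.mk' Q)

/-- The image in `H/Q` of the part in `H` of the conjugate of `Q`. -/
abbrev Eim (z : G) (Q : Subgroup ↥(Cz z)) [Q.Normal] (g : G) : Subgroup (↥(Cz z) ⧸ Q) :=
  (Rg z Q g).map (QuotientGroup.mk' Q)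

/-- The part of the derived group over the group of order sixteen. -/
def Wgp (Q : Subgroup ↥(Cz z)) [Q.Normal] (Mb : Subgroup (↥(Cz z) ⧸ Q)) (g : G)
    (X : Subgroup ↥(Cz z)) : Subgroup ↥(Cz z) :=
  Dgp X ⊓ (E16 Mb (Eim z Q g)).comap (QuotientGroup.mk' Q)

/-- The hypotheses of the argument by contradiction. -/
structure NoCentre (z : G) (Q : Subgroup ↥(Cz z)) [Q.Normal] (q : V → ZMod 2) (pr : ↥Q → V)
    (act : (↥(Cz z) ⧸ Q) →* Equiv.Perm V) (Mb Cb : Subgroup (↥(Cz z) ⧸ Q)) [Cb.Normal]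
    (φ : Fin 4096 ≃ V) (cl : ZMod 3) (g : G) (a a' : ↥Q) (X : Subgroup ↥(Cz z)) : Prop where
  conf : Conf z Q q pr act Mb Cb φ cl
  twin : Twin z Q pr φ g a a'
  pair : PairData φ act (Eim z Q g)
  cardX : Nat.card ↥X = 3
  normX : (X ⊔ Q).Normal
  not_mem : zH z ∉ Dgp X

namespace NoCentre

variable (nc : NoCentre z Q q pr act Mb Cb φ cl g a a' X)
include nc

theorem D_le : Dgp X ≤ Subgroup.centralizer (X : Set ↥(Cz z)) := Subgroup.commutator_le_self _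

theorem D_inj {d : ↥(Cz z)} (hd : d ∈ Dgp X) (h1 : QuotientGroup.mk' Q d = 1) : d = 1 :=
  (nc.conf.centralizer_inf nc.cardX nc.normX (nc.D_le hd)
    ((QuotientGroup.eq_one_iff d).mp h1)).resolve_right fun e => nc.not_mem (e ▸ hd)

theorem D_eq {d d' : ↥(Cz z)} (hd : d ∈ Dgp X) (hd' : d' ∈ Dgp X)
    (h1 : QuotientGroup.mk' Q d = QuotientGroup.mk' Q d') : d = d' := by
  have := nc.D_inj (mul_mem (inv_mem hd) hd') (by rw [map_mul, map_inv, h1, inv_mul_cancel])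
  exact inv_mul_eq_one.mp this

theorem D_map : (Dgp X).map (QuotientGroup.mk' Q) = Mb := by
  rw [Dgp, Subgroup.map_commutator, nc.conf.map_centralizer nc.cardX nc.normX nc.pair,
    nc.conf.ctx.commutator_eq nc.conf.simple]

theorem exists_D {k : ↥(Cz z) ⧸ Q} (hk : k ∈ Mb) :
    ∃ d ∈ Dgp X, QuotientGroup.mk' Q d = k := by
  rw [← nc.D_map] at hk
  exact hk

theorem D_mem_Mb {d : ↥(Cz z)} (hd : d ∈ Dgp X) : QuotientGroup.mk' Q d ∈ Mb :=
  nc.D_map ▸ Subgroup.mem_map_of_mem _ hd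

theorem P_perfect : ⁅Pgp Q φ act X, Pgp Q φ act X⁆ = Pgp Q φ act X := by
  refine le_antisymm (Subgroup.commutator_le_self _) fun h hh => ?_
  have hmap : (Pgp Q φ act X).map (QuotientGroup.mk' Q) = stabN φ act ⊓ Mb := by
    refine le_antisymm ?_ fun k hk => ?_
    · rintro _ ⟨d, hd, rfl⟩
      exact Subgroup.mem_inf.mpr ⟨(Subgroup.mem_inf.mp hd).2, nc.D_mem_Mb (Subgroup.mem_inf.mp hd).1⟩
    · obtain ⟨d, hd, rfl⟩ := nc.exists_D (Subgroup.mem_inf.mp hk).2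
      exact ⟨d, Subgroup.mem_inf.mpr ⟨hd, (Subgroup.mem_inf.mp hk).1⟩, rfl⟩
  have h1 : QuotientGroup.mk' Q h ∈ ⁅Pgp Q φ act X, Pgp Q φ act X⁆.map (QuotientGroup.mk' Q) := by
    rw [Subgroup.map_commutator, hmap, nc.conf.ctx.commutator_stab nc.pair, ← hmap]
    exact Subgroup.mem_map_of_mem _ hh
  obtain ⟨d, hd, hde⟩ := h1
  have hd' : d ∈ Dgp X := (Subgroup.mem_inf.mp (Subgroup.commutator_le_self _ hd)).1
  rwa [← nc.D_eq hd' (Subgroup.mem_inf.mp hh).1 hde]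

/-- Elements over the stabiliser fix the second conjugate of `z`. -/
theorem P_fix {h : ↥(Cz z)} (hh : h ∈ Pgp Q φ act X) :
    h * a = a * h := by
  let P := Pgp Q φ act X
  have hval : ∀ k ∈ Pgp Q φ act X, (a : ↥(Cz z))⁻¹ * (k * a * k⁻¹) ∈ Subgroup.center ↥(Cz z) := by
    intro k hk
    have h1 : pr a = pr ⟨k * a * k⁻¹, Subgroup.Normal.conj_mem inferInstance _ a.2 k⟩ := by
      rw [← nc.conf.nu_eq_iff, ← nc.conf.nu_conj k a ⟨k * a * k⁻¹, Subgroup.Normal.conj_mem inferInstance _ a.2 k⟩ rfl, nc.twin.nu_a]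
      exact (mem_stabN.mp (Subgroup.mem_comap.mp (Subgroup.mem_inf.mp hk).2)).symm
    rcases nc.conf.diff_of_pr_eq h1 with e | e
    · rw [e]; exact one_mem _
    · rw [e]; exact zH_central
  let f : ↥P →* ↥(Subgroup.center ↥(Cz z)) := MonoidHom.mk'
    (fun k => ⟨(a : ↥(Cz z))⁻¹ * ((k : ↥(Cz z)) * a * (k : ↥(Cz z))⁻¹), hval k k.2⟩) fun k l => by
      apply Subtype.ext
      show (a : ↥(Cz z))⁻¹ * ((k : ↥(Cz z)) * l * a * ((k : ↥(Cz z)) * l)⁻¹) =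
        (a : ↥(Cz z))⁻¹ * ((k : ↥(Cz z)) * a * (k : ↥(Cz z))⁻¹) *
          ((a : ↥(Cz z))⁻¹ * ((l : ↥(Cz z)) * a * (l : ↥(Cz z))⁻¹))
      have hc := Subgroup.mem_center_iff.mp (hval l l.2) (k : ↥(Cz z))
      calc (a : ↥(Cz z))⁻¹ * ((k : ↥(Cz z)) * l * a * ((k : ↥(Cz z)) * l)⁻¹)
          = (a : ↥(Cz z))⁻¹ * ((k : ↥(Cz z)) * a) * (((a : ↥(Cz z))⁻¹ *
              ((l : ↥(Cz z)) * a * (l : ↥(Cz z))⁻¹)) * (k : ↥(Cz z))⁻¹) := by group
        _ = (a : ↥(Cz z))⁻¹ * ((k : ↥(Cz z)) * a) * ((k : ↥(Cz z))⁻¹ * ((k : ↥(Cz z)) *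
              ((a : ↥(Cz z))⁻¹ * ((l : ↥(Cz z)) * a * (l : ↥(Cz z))⁻¹))) *
                (k : ↥(Cz z))⁻¹) := by group
        _ = _ := by rw [hc]; group
  have hker : commutator ↥P ≤ f.ker := by
    rw [commutator_def, Subgroup.commutator_le]
    intro k _ l _
    rw [MonoidHom.mem_ker, map_commutatorElement, commutatorElement_eq_one_iff_mul_comm]
    exact Subtype.ext (Subgroup.mem_center_iff.mp (f k).2 _).symm
  have h1 : h ∈ (commutator ↥P).map P.subtype := by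
    rw [Subgroup.map_subtype_commutator]
    exact nc.P_perfect.symm ▸ hh
  obtain ⟨k, hk, rfl⟩ := h1
  have h2 : (a : ↥(Cz z))⁻¹ * ((k : ↥(Cz z)) * a * (k : ↥(Cz z))⁻¹) = 1 :=
    congrArg Subtype.val (MonoidHom.mem_ker.mp (hker hk))
  exact mul_inv_eq_iff_eq_mul.mp (inv_mul_eq_one.mp h2).symm

theorem W_le_P : Wgp Q Mb g X ≤ Pgp Q φ act X := fun h hh =>
  Subgroup.mem_inf.mpr ⟨(Subgroup.mem_inf.mp hh).1, nc.pair.le (Subgroup.mem_inf.mp hh).2.1⟩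

theorem W_comm {b b' : ↥(Cz z)} (hb : b ∈ Wgp Q Mb g X) (hb' : b' ∈ Wgp Q Mb g X) :
    b * b' = b' * b :=
  nc.D_eq (mul_mem (Subgroup.mem_inf.mp hb).1 (Subgroup.mem_inf.mp hb').1)
    (mul_mem (Subgroup.mem_inf.mp hb').1 (Subgroup.mem_inf.mp hb).1) (by
      rw [map_mul, map_mul]
      exact nc.pair.comm _ (Subgroup.mem_inf.mp hb).2.1 _ (Subgroup.mem_inf.mp hb').2.1)

theorem W_sq {b : ↥(Cz z)} (hb : b ∈ Wgp Q Mb g X) : b * b = 1 :=
  nc.D_inj (mul_mem (Subgroup.mem_inf.mp hb).1 (Subgroup.mem_inf.mp hb).1)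
    (by rw [map_mul]; exact nc.pair.sq _ (Subgroup.mem_inf.mp hb).2.1)

theorem W_conj {p b : ↥(Cz z)} (hp : p ∈ Pgp Q φ act X) (hb : b ∈ Wgp Q Mb g X) :
    p * b * p⁻¹ ∈ Wgp Q Mb g X := by
  refine Subgroup.mem_inf.mpr ⟨mul_mem (mul_mem (Subgroup.mem_inf.mp hp).1
    (Subgroup.mem_inf.mp hb).1) (inv_mem (Subgroup.mem_inf.mp hp).1), ?_⟩
  rw [Subgroup.mem_comap, map_mul, map_mul, map_inv]
  exact nc.conf.ctx.E16_conj nc.pair _ (Subgroup.mem_inf.mp hp).2 _ (Subgroup.mem_inf.mp hb).2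

theorem exists_W {k : ↥(Cz z) ⧸ Q} (hk : k ∈ E16 Mb (Eim z Q g)) :
    ∃ b ∈ Wgp Q Mb g X, QuotientGroup.mk' Q b = k := by
  obtain ⟨d, hd, rfl⟩ := nc.exists_D (Subgroup.mem_inf.mp hk).2
  exact ⟨d, Subgroup.mem_inf.mpr ⟨hd, hk⟩, rfl⟩

theorem exists_W_ne : ∃ b ∈ Wgp Q Mb g X, b ≠ 1 := by
  obtain ⟨k, hk, hk1⟩ := (Subgroup.bot_or_exists_ne_one (E16 Mb (Eim z Q g))).resolve_left fun e => by
    have := nc.conf.ctx.card_E16 nc.pair
    rw [e, Subgroup.card_bot] at this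
    omega
  obtain ⟨b, hb, rfl⟩ := nc.exists_W hk
  exact ⟨b, hb, fun e => hk1 (by rw [e, map_one])⟩

/-- Each element over the group of order sixteen is conjugate under `Q` into the conjugate of `Q`. -/
theorem exists_conj_into {b : ↥(Cz z)} (hb : b ∈ Wgp Q Mb g X) :
    ∃ x ∈ Q, x * b * x⁻¹ ∈ Rg z Q g := by
  obtain ⟨e, he, hee⟩ := (Subgroup.mem_inf.mp hb).2.1
  have huQ : b * e⁻¹ ∈ Q := by
    rw [← QuotientGroup.eq_one_iff]
    show QuotientGroup.mk' Q (b * e⁻¹) = 1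
    rw [map_mul, map_inv, hee, mul_inv_cancel]
  let u : ↥Q := ⟨b * e⁻¹, huQ⟩
  let k := QuotientGroup.mk' Q b
  let L : V →+ V := AddMonoidHom.mk' (act k) (nc.conf.action.act_add k)
  obtain ⟨xX, hxX, hcx, -⟩ := nc.conf.exists_scalar_lift nc.cardX nc.normX
  have hxb : xX * b = b * xX :=
    Subgroup.mem_centralizer_iff.mp (nc.D_le (Subgroup.mem_inf.mp hb).1) xX hxX
  have key : ∀ i ∈ isoPart nc.conf.action g, L i = i → pol q (pr u) i = 0 := by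
    rintro _ ⟨i, hi, rfl⟩ hfix
    have hd : ∀ j : ↥Q, act k (pr j) = pr j →
        ∃ d ∈ Subgroup.center ↥(Cz z), (d = 1 ∨ d = zH z) ∧
          b * j * b⁻¹ = (j : ↥(Cz z)) * d := by
      intro j hj
      have h1 : pr j = pr ⟨b * j * b⁻¹, Subgroup.Normal.conj_mem inferInstance _ j.2 b⟩ :=
        hj.symm.trans (nc.conf.act_conj b j)
      have h2 := nc.conf.diff_of_pr_eq h1
      refine ⟨_, ?_, h2, (mul_inv_cancel_left (j : ↥(Cz z)) _).symm⟩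
      rcases h2 with e | e
      · rw [e]; exact one_mem _
      · rw [e]; exact zH_central
    obtain ⟨d, hdc, hd2, hdi⟩ := hd i hfix
    let i2 : ↥Q := ⟨xX * i * xX⁻¹, Subgroup.Normal.conj_mem inferInstance _ i.2 xX⟩
    let i3 : ↥Q := ⟨xX * i2 * xX⁻¹, Subgroup.Normal.conj_mem inferInstance _ i2.2 xX⟩
    have hd1 : ∀ j : ↥Q, b * j * b⁻¹ = (j : ↥(Cz z)) * d →
        b * (xX * j * xX⁻¹) * b⁻¹ = xX * j * xX⁻¹ * d := by
      intro j hj
      have hx' : xX⁻¹ * b⁻¹ = b⁻¹ * xX⁻¹ := by rw [← mul_inv_rev, ← mul_inv_rev, hxb]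
      calc b * (xX * j * xX⁻¹) * b⁻¹ = (b * xX) * j * (xX⁻¹ * b⁻¹) := by group
        _ = xX * (b * j * b⁻¹) * xX⁻¹ := by rw [← hxb, hx']; group
        _ = xX * (j : ↥(Cz z)) * (d * xX⁻¹) := by rw [hj]; group
        _ = xX * j * xX⁻¹ * d := by
            rw [← Subgroup.mem_center_iff.mp hdc xX⁻¹]; group
    have hn : nu φ pr (i * (i2 * i3)) = 0 := by
      have h2 : nu φ pr i2 = om (nu φ pr i) := by rw [← hcx, nc.conf.nu_conj xX i i2 rfl]
      have h3 : nu φ pr i3 = om (nu φ pr i2) := by rw [← hcx, nc.conf.nu_conj xX i2 i3 rfl]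
      rw [nc.conf.nu_mul, nc.conf.nu_mul, h3, h2]
      exact (om_sum _).1
    have hfixprod : b * ((i : ↥(Cz z)) * (i2 * i3)) * b⁻¹ = (i : ↥(Cz z)) * (i2 * i3) := by
      have hcen : (i : ↥(Cz z)) * (i2 * i3) ∈ Subgroup.center ↥(Cz z) := by
        rcases nc.conf.nu_eq_zero.mp hn with e | e
        · exact (show (i : ↥(Cz z)) * (i2 * i3) = 1 from e).symm ▸ one_mem _
        · exact (show (i : ↥(Cz z)) * (i2 * i3) = zH z from e).symm ▸ zH_central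
      rw [Subgroup.mem_center_iff.mp hcen b, mul_inv_cancel_right]
    have hd3 : d * (d * d) = 1 := by
      have hc := Subgroup.mem_center_iff.mp hdc
      have hsplit : b * ((i : ↥(Cz z)) * (i2 * i3)) * b⁻¹ =
          (b * i * b⁻¹) * ((b * i2 * b⁻¹) * (b * i3 * b⁻¹)) := by group
      rw [hdi, hd1 i hdi, hd1 i2 (hd1 i hdi), hfixprod] at hsplit
      have hA : (i : ↥(Cz z)) * d * (((i2 : ↥(Cz z)) * d) * ((i3 : ↥(Cz z)) * d)) =
          ((i : ↥(Cz z)) * (i2 * i3)) * (d * (d * d)) := by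
        have c1 : ∀ y t : ↥(Cz z), d * (y * t) = y * (d * t) := fun y t => by
          rw [← mul_assoc, ← hc y, mul_assoc]
        simp only [mul_assoc, c1]
      exact mul_eq_left.mp (hA.symm.trans hsplit.symm)
    have hd0 : d = 1 := by
      rcases hd2 with e | e
      · exact e
      · rw [e, nc.conf.zH_sq, mul_one] at hd3
        exact absurd hd3 nc.conf.zH_ne
    rw [hd0, mul_one] at hdi
    refine nc.conf.comm_of_pol u i (mul_inv_eq_iff_eq_mul.mp (mul_inv_eq_one.mp ?_))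
    rcases nc.conf.comm_Q u i with h1 | h1
    · exact h1
    · exfalso
      rcases nc.conf.comm_Q u i with h0 | -
      · exact nc.conf.zH_ne (h1.symm.trans h0)
      have hbf : b * a = a * b := nc.P_fix (nc.W_le_P hb)
      have hue : (u : ↥(Cz z)) * i * (u : ↥(Cz z))⁻¹ * (i : ↥(Cz z))⁻¹ =
          b * (e⁻¹ * i * e * (i : ↥(Cz z))⁻¹) * b⁻¹ := by
        show b * e⁻¹ * i * (b * e⁻¹)⁻¹ * (i : ↥(Cz z))⁻¹ = _
        calc b * e⁻¹ * i * (b * e⁻¹)⁻¹ * (i : ↥(Cz z))⁻¹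
            = b * e⁻¹ * i * e * b⁻¹ * (b * i * b⁻¹)⁻¹ := by rw [hdi]; group
          _ = _ := by group
      have hc2 := nc.conf.comm_Rg nc.twin (inv_mem he) hi
      rw [inv_inv] at hc2
      rcases hc2 with e2 | e2
      · rw [e2, mul_one, mul_inv_cancel] at hue
        exact nc.conf.zH_ne (h1.symm.trans hue)
      · rw [e2, hbf, mul_inv_cancel_right] at hue
        exact nc.conf.a_ne_z nc.twin (hue.symm.trans h1)
  obtain ⟨i, ⟨i', hi', rfl⟩, w, hw⟩ := mem_sup_moved nc.conf.action.quad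
    (isoPart nc.conf.action g) (nc.conf.card_isoPart nc.twin)
    (by rintro _ ⟨j, hj, rfl⟩; exact nc.conf.isotropic nc.twin hj) L
    (act k).surjective (nc.conf.action.act_q k) (pr u) key
  obtain ⟨x, rfl⟩ := nc.conf.action.pr_surj w
  refine ⟨x, x.2, ?_⟩
  let bx : ↥Q := ⟨b * x * b⁻¹, Subgroup.Normal.conj_mem inferInstance _ x.2 b⟩
  have hbx : L (pr x) = pr bx := nc.conf.act_conj b x
  have h1 : pr i' = pr (x * bx⁻¹ * u) := by
    rw [nc.conf.action.pr_mul, nc.conf.action.pr_mul, nc.conf.pr_inv, hw, hbx]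
    funext t
    simp only [Pi.add_apply]
    generalize pr i' t = p; generalize pr bx t = p'; generalize pr x t = p''
    revert p p' p''; decide
  have h2 : ((x * bx⁻¹ * u : ↥Q) : ↥(Cz z)) ∈ Rg z Q g := by
    rcases nc.conf.diff_of_pr_eq h1 with e1 | e1
    · rw [← inv_mul_eq_one.mp e1]; exact hi'
    · rw [inv_mul_eq_iff_eq_mul.mp e1]
      exact (Rg z Q g).mul_mem hi' (nc.conf.zH_mem_Rg nc.twin)
  have h3 : (x : ↥(Cz z)) * b * (x : ↥(Cz z))⁻¹ = ((x * bx⁻¹ * u : ↥Q) : ↥(Cz z)) * e := by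
    show _ = (x : ↥(Cz z)) * (b * x * b⁻¹)⁻¹ * (b * e⁻¹) * e
    group
  rw [h3]
  exact (Rg z Q g).mul_mem h2 he

/-- The stabiliser in the index-two part is transitive on the involutions of `E16`. -/
theorem transitive_W {b b' : ↥(Cz z)} (hb : b ∈ Wgp Q Mb g X) (hb1 : b ≠ 1)
    (hb' : b' ∈ Wgp Q Mb g X) (hb'1 : b' ≠ 1) :
    ∃ p ∈ Pgp Q φ act X, p * b * p⁻¹ = b' := by
  have hne : ∀ c ∈ Wgp Q Mb g X, c ≠ 1 → QuotientGroup.mk' Q c ≠ 1 := fun c hc h1 h =>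
    h1 (nc.D_inj (Subgroup.mem_inf.mp hc).1 h)
  obtain ⟨k, hk, hke⟩ := nc.conf.ctx.transitive nc.pair (Subgroup.mem_inf.mp hb).2 (hne b hb hb1)
    (Subgroup.mem_inf.mp hb').2 (hne b' hb' hb'1)
  obtain ⟨ψ, hψ, hker⟩ := nc.pair.quot
  obtain ⟨⟨y, hy⟩, hyM, hye⟩ : ψ ⟨k, hk⟩ ∈ (Mb.subgroupOf (stabN φ act)).map ψ := by
    rw [nc.conf.ctx.map_stab_inf_eq_top nc.pair ψ hψ hker]; exact Subgroup.mem_top _
  have hE : y⁻¹ * k ∈ Eim z Q g := by
    have : (⟨y, hy⟩ : ↥(stabN φ act))⁻¹ * ⟨k, hk⟩ ∈ (Eim z Q g).subgroupOf (stabN φ act) := by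
      rw [← hker, MonoidHom.mem_ker, map_mul, map_inv, hye, inv_mul_cancel]
    exact Subgroup.mem_subgroupOf.mp this
  have hcomm : (y⁻¹ * k) * QuotientGroup.mk' Q b = QuotientGroup.mk' Q b * (y⁻¹ * k) :=
    nc.pair.comm _ hE _ (Subgroup.mem_inf.mp hb).2.1
  obtain ⟨p, hp, hpe⟩ := nc.exists_D (Subgroup.mem_subgroupOf.mp hyM)
  have hpP : p ∈ Pgp Q φ act X :=
    Subgroup.mem_inf.mpr ⟨hp, Subgroup.mem_comap.mpr (hpe.symm ▸ hy)⟩
  refine ⟨p, hpP, nc.D_eq (Subgroup.mem_inf.mp (nc.W_conj hpP hb)).1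
    (Subgroup.mem_inf.mp hb').1 ?_⟩
  rw [map_mul, map_mul, map_inv, hpe, ← hke]
  calc y * QuotientGroup.mk' Q b * y⁻¹
      = y * (QuotientGroup.mk' Q b * (y⁻¹ * k)) * k⁻¹ := by group
    _ = k * QuotientGroup.mk' Q b * k⁻¹ := by rw [← hcomm]; group

theorem conj_fix {x p : ↥(Cz z)} (hx : x ∈ Q) (hp : p ∈ Pgp Q φ act X) :
    (x * p * x⁻¹) * a = a * (x * p * x⁻¹) := by
  have hpa := nc.P_fix hp
  obtain ⟨d, hd, hde⟩ : ∃ d ∈ Subgroup.center ↥(Cz z), x⁻¹ * a * x = a * d := by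
    refine ⟨(a : ↥(Cz z))⁻¹ * x⁻¹ * a * x, ?_, by group⟩
    have h := nc.conf.comm_Q a⁻¹ ⟨x⁻¹, inv_mem hx⟩
    rw [InvMemClass.coe_inv, inv_inv, inv_inv] at h
    rcases h with e | e
    · rw [e]; exact one_mem _
    · rw [e]; exact zH_central
  have hdp := Subgroup.mem_center_iff.mp hd p
  calc (x * p * x⁻¹) * a = x * p * (x⁻¹ * a * x) * x⁻¹ := by group
    _ = x * ((p * a) * d) * x⁻¹ := by rw [hde]; group
    _ = x * (a * (p * d)) * x⁻¹ := by rw [hpa, mul_assoc (a : ↥(Cz z))]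
    _ = x * (a * d) * x⁻¹ * (x * p * x⁻¹) := by rw [hdp]; group
    _ = a * (x * p * x⁻¹) := by rw [← hde]; group

/-- One element of `Q` conjugates the whole group of order sixteen into the conjugate of `Q`. -/
theorem exists_conj_all : ∃ x ∈ Q, ∀ b ∈ Wgp Q Mb g X, x * b * x⁻¹ ∈ Rg z Q g := by
  obtain ⟨b₀, hb₀, hne⟩ := nc.exists_W_ne
  obtain ⟨x, hx, hxb⟩ := nc.exists_conj_into hb₀
  refine ⟨x, hx, fun b hb => ?_⟩
  by_cases h1 : b = 1
  · rw [h1, mul_one, mul_inv_cancel]; exact one_mem _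
  obtain ⟨p, hp, rfl⟩ := nc.transitive_W hb₀ hne hb h1
  have := nc.conf.conj_Rg nc.twin (nc.conj_fix hx hp) hxb
  convert this using 1
  group

end NoCentre

end CfsgLib.LargeFischer64
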