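import Cfsg.Agent.LargeFischer85.Defs

/-!
Large Fischer type, finite facts in the six-dimensional model for the structure of the centraliser
of the element of order three: a symmetry fixing the standard singular vector and commuting with two
monomial elements of order three is trivial; the scalar is a product of monomial commutators; two
singular vectors in the two moved parts never have their sum in their orbit.
-/

set_option autoImplicit false

namespace CfsgLib.LargeFischer64

open CfsgLib.LargeFischer85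

/-- The standard singular vector of weight four. -/
def n0 : Fin 4096 := 85

/-- The three-cycle on the first three coordinates. -/
def c012 : Equiv.Perm (Fin 6) := Equiv.swap 0 1 * Equiv.swap 1 2

/-- The three-cycle on the last three coordinates. -/
def c345 : Equiv.Perm (Fin 6) := Equiv.swap 3 4 * Equiv.swap 4 5

/-- The exponents of the diagonal element. -/
def eExp : Fin 6 → ZMod 3 := ![0, 0, 0, 0, 1, 2]

/-- The diagonal element of order three fixing `n0`. -/
def epsF : Fin 4096 → Fin 4096 := monF 1 eExp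

/-- The permutation element of order three fixing `n0`. -/
def sigF : Fin 4096 → Fin 4096 := monF c012 0

theorem forall_grid {P : Fin 4096 → Prop}
    (h : ∀ i : Fin 64, ∀ j : Fin 64, P ⟨64 * i.val + j.val, by omega⟩) (x : Fin 4096) : P x := by
  have e : x = ⟨64 * (x.val / 64) + x.val % 64, by omega⟩ := Fin.ext (by simp only; omega)
  rw [e]
  exact h ⟨x.val / 64, by omega⟩ ⟨x.val % 64, by omega⟩

theorem sign_c012 : Equiv.Perm.sign c012 = 1 := by decide

theorem sign_c345 : Equiv.Perm.sign c345 = 1 := by decide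

theorem sum_eExp : ∑ i, eExp i = 0 := by decide

theorem epsF_n0 : epsF n0 = n0 := by decide +kernel

theorem sigF_n0 : sigF n0 = n0 := by decide +kernel

theorem inTwo_n0 : ∀ k, inTwo k n0 := by decide +kernel

theorem moved_eps : ∀ x : Fin 4096, (vadd x (epsF x)).val % 256 = 0 := forall_grid (by decide +kernel)

theorem moved_sig : ∀ x : Fin 4096, (vadd x (sigF x)).val < 64 := forall_grid (by decide +kernel)

theorem no_pair : ∀ a b : Fin 4096, a.val % 256 = 0 → b.val < 64 → a ≠ 0 → b ≠ 0 → sing a →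
    sing b → ∀ k, inOne k a ∧ ¬ inOne k (vadd a b) := by
  have h : ∀ i : Fin 16, ∀ j : Fin 64, ∀ k : ZMod 3, i.val ≠ 0 → j.val ≠ 0 →
      sing ⟨256 * i.val, by omega⟩ → sing ⟨j.val, by omega⟩ →
      inOne k ⟨256 * i.val, by omega⟩ ∧ ¬ inOne k (vadd ⟨256 * i.val, by omega⟩ ⟨j.val, by omega⟩) := by
    decide +kernel
  intro a b ha hb ha0 hb0 hsa hsb k
  have hi : a.val / 256 < 16 := by omega
  have ea : (⟨256 * (a.val / 256), by omega⟩ : Fin 4096) = a := Fin.ext (by simp only; omega)
  have eb : (⟨b.val, by omega⟩ : Fin 4096) = b := rfl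
  have h1 := h ⟨a.val / 256, hi⟩ ⟨b.val, hb⟩ k
  simp only [ea, eb] at h1
  refine h1 ?_ ?_ hsa hsb
  · intro h0; exact ha0 (Fin.ext (by simp only [Fin.val_zero]; omega))
  · intro h0; exact hb0 (Fin.ext (by simpa using h0))

theorem fixed_u : ∀ x : Fin 4096, epsF x = x → sigF x = x → ¬ sing x → ¬ sing (vadd x n0) →
    x = 21 ∨ x = 64 := forall_grid (by decide +kernel)

theorem eigen_five : ∀ x : Fin 4096, epsF x = om x → sigF x = x → ¬ sing x →
    x = 256 ∨ x = om 256 ∨ x = om (om 256) := forall_grid (by decide +kernel)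

theorem eigen_six : ∀ x : Fin 4096, epsF x = om (om x) → sigF x = x → ¬ sing x →
    x = 1024 ∨ x = om 1024 ∨ x = om (om 1024) := forall_grid (by decide +kernel)

theorem eigen_v1 : ∀ x : Fin 4096, epsF x = x → sigF x = om x → ¬ sing x →
    x = 45 ∨ x = om 45 ∨ x = om (om 45) := forall_grid (by decide +kernel)

theorem eigen_v2 : ∀ x : Fin 4096, epsF x = x → sigF x = om (om x) → ¬ sing x →
    x = 57 ∨ x = om 57 ∨ x = om (om 57) := forall_grid (by decide +kernel)

/-- One digit. -/
def single (i : Fin 6) (d : ℕ) : Fin 4096 := mkN fun j => if j = i then d else 0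

theorem expand : ∀ n : Fin 4096, n =
    vadd (single 0 (dig n.val 0)) (vadd (single 1 (dig n.val 1)) (vadd (single 2 (dig n.val 2))
      (vadd (single 3 (dig n.val 3)) (vadd (single 4 (dig n.val 4)) (single 5 (dig n.val 5)))))) :=
  forall_grid (by decide +kernel)

theorem single_cases : ∀ i : Fin 6, single i 0 = 0 ∧ single i 2 = om (single i 1) ∧
    single i 3 = om (om (single i 1)) := by decide +kernel

/-- The images of the frame generate: an additive map commuting with the scalar fixing the six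
frame vectors is the identity. -/
theorem eq_id_of_frame {g : Fin 4096 → Fin 4096} (hadd : ∀ a b, g (vadd a b) = vadd (g a) (g b))
    (hom : ∀ a, g (om a) = om (g a)) (hzero : g 0 = 0) (hfr : ∀ i : Fin 6, g (single i 1) = single i 1)
    (n : Fin 4096) : g n = n := by
  have hs : ∀ (i : Fin 6) (d : ℕ), d < 4 → g (single i d) = single i d := by
    intro i d hd
    obtain ⟨h0, h2, h3⟩ := single_cases i
    have hd' : d = 0 ∨ d = 1 ∨ d = 2 ∨ d = 3 := by omega
    rcases hd' with rfl | rfl | rfl | rfl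
    · rw [h0, hzero]
    · exact hfr i
    · rw [h2, hom, hfr]
    · rw [h3, hom, hom, hfr]
  have hl : ∀ i, dig n.val i < 4 := fun i => Nat.mod_lt _ (by norm_num)
  rw [expand n, hadd, hadd, hadd, hadd, hadd]
  simp only [hs _ _ (hl _)]

theorem test_pair : ∀ k, inOne k (257 : Fin 4096) ∧
    ¬ inOne k (vadd (vadd (vadd (64 : Fin 4096) 45) 57) 256) := by decide +kernel

theorem frame_combos : single 0 1 = vadd (21 : Fin 4096) (vadd 45 57) ∧
    single 1 1 = vadd (21 : Fin 4096) (vadd (om 45) (om (om 57))) ∧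
    single 2 1 = vadd (21 : Fin 4096) (vadd (om (om 45)) (om 57)) ∧
    single 3 1 = (64 : Fin 4096) ∧ single 4 1 = (256 : Fin 4096) ∧
    single 5 1 = (1024 : Fin 4096) ∧ (257 : Fin 4096) = vadd (vadd (vadd 21 45) 57) 256 ∧
    vadd (21 : Fin 4096) n0 = 64 := by decide +kernel

theorem eigen_checks : epsF 21 = 21 ∧ sigF 21 = 21 ∧ ¬ sing (21 : Fin 4096) ∧
    ¬ sing (vadd (21 : Fin 4096) n0) ∧ epsF 256 = om 256 ∧ sigF 256 = 256 ∧ ¬ sing (256 : Fin 4096) ∧
    epsF 1024 = om (om 1024) ∧ sigF 1024 = 1024 ∧ ¬ sing (1024 : Fin 4096) ∧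
    epsF 45 = 45 ∧ sigF 45 = om 45 ∧ ¬ sing (45 : Fin 4096) ∧
    epsF 57 = 57 ∧ sigF 57 = om (om 57) ∧ ¬ sing (57 : Fin 4096) := by decide +kernel

theorem om_ne_list :
    (([256, 1024, 45, 57] : List (Fin 4096)).all fun x =>
      decide (om (om x) ≠ x ∧ om (om (om (om x))) ≠ x)) = true := by decide +kernel

theorem om_ne : ∀ x ∈ ([256, 1024, 45, 57] : List (Fin 4096)),
    om (om x) ≠ x ∧ om (om (om (om x))) ≠ x := fun x hx =>
  of_decide_eq_true (List.all_eq_true.mp om_ne_list x hx)

/-- An involutory symmetry fixing `n0` and commuting with the two monomial elements of order three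
is the identity. -/
theorem trivial_of_centralizes {g : Fin 4096 → Fin 4096} {k : ZMod 3}
    (hadd : ∀ a b, g (vadd a b) = vadd (g a) (g b)) (hom : ∀ a, g (om a) = om (g a))
    (hzero : g 0 = 0) (hinv : ∀ a, g (g a) = a) (hsing : ∀ a, sing (g a) ↔ sing a)
    (hone : ∀ a, inOne k (g a) ↔ inOne k a) (hn : g n0 = n0)
    (heps : ∀ a, g (epsF a) = epsF (g a)) (hsig : ∀ a, g (sigF a) = sigF (g a))
    (n : Fin 4096) : g n = n := by
  obtain ⟨u1, u2, u3, u4, f1, f2, f3, s1, s2, s3, v1a, v1b, v1c, v2a, v2b, v2c⟩ := eigen_checks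
  have hscal : ∀ x ∈ ([256, 1024, 45, 57] : List (Fin 4096)),
      g x = x ∨ g x = om x ∨ g x = om (om x) → g x = x := by
    intro x hx h
    obtain ⟨h1, h2⟩ := om_ne x hx
    rcases h with h | h | h
    · exact h
    · exact absurd (by have := hinv x; rwa [h, hom, h] at this) h1
    · exact absurd (by have := hinv x; rwa [h, hom, hom, h] at this) h2
  have e5 : g 256 = 256 := hscal 256 (by simp)
    (eigen_five _ (by rw [← heps, f1, hom]) (by rw [← hsig, f2]) fun hc => f3 ((hsing _).mp hc))
  have e6 : g 1024 = 1024 := hscal 1024 (by simp)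
    (eigen_six _ (by rw [← heps, s1, hom, hom]) (by rw [← hsig, s2]) fun hc => s3 ((hsing _).mp hc))
  have e45 : g 45 = 45 := hscal 45 (by simp)
    (eigen_v1 _ (by rw [← heps, v1a]) (by rw [← hsig, v1b, hom]) fun hc => v1c ((hsing _).mp hc))
  have e57 : g 57 = 57 := hscal 57 (by simp)
    (eigen_v2 _ (by rw [← heps, v2a]) (by rw [← hsig, v2b, hom, hom]) fun hc => v2c ((hsing _).mp hc))
  obtain ⟨c0, c1, c2, c3, c4, c5, c6, c7⟩ := frame_combos
  have e21 : g 21 = 21 := by
    rcases fixed_u (g 21) (by rw [← heps, u1]) (by rw [← hsig, u2])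
      (fun hc => u3 ((hsing _).mp hc)) (fun hc => u4 ((hsing _).mp (by rwa [hadd, hn]))) with h | h
    · exact h
    · exfalso
      obtain ⟨t1, t2⟩ := test_pair k
      rw [c6] at t1
      exact t2 (by have := (hone _).mpr t1; rwa [hadd, hadd, hadd, h, e45, e57, e5] at this)
  have e64 : g 64 = 64 := by rw [← c7, hadd, e21, hn]
  refine eq_id_of_frame hadd hom hzero (fun i => ?_) n
  fin_cases i
  · show g (single 0 1) = single 0 1
    rw [c0, hadd, hadd, e21, e45, e57]
  · show g (single 1 1) = single 1 1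
    rw [c1, hadd, hadd, hom, hom, hom, e21, e45, e57]
  · show g (single 2 1) = single 2 1
    rw [c2, hadd, hadd, hom, hom, hom, e21, e45, e57]
  · show g (single 3 1) = single 3 1
    rw [c3, e64]
  · show g (single 4 1) = single 4 1
    rw [c4, e5]
  · show g (single 5 1) = single 5 1
    rw [c5, e6]

/-- Diagonal exponents whose sum is the scalar. -/
def dExp : Fin 4 → Fin 6 → ZMod 3 :=
  ![![1, 2, 0, 0, 0, 0], ![0, 2, 1, 0, 0, 0], ![0, 0, 0, 1, 2, 0], ![0, 0, 0, 0, 2, 1]]

/-- Permutations having the diagonal elements as commutators. -/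
def dPerm : Fin 4 → Equiv.Perm (Fin 6) := ![c012, c012, c345, c345]

/-- Diagonal exponents having the diagonal elements as commutators. -/
def dAux : Fin 4 → Fin 6 → ZMod 3 :=
  ![![0, 1, 1, 0, 0, 1], ![0, 1, 0, 0, 0, 2], ![0, 0, 1, 0, 1, 1], ![0, 0, 2, 0, 1, 0]]

theorem dData_ok : ∀ d : Fin 4, (∑ i, dExp d i = 0) ∧ Equiv.Perm.sign (dPerm d) = 1 ∧
    (∑ i, dAux d i = 0) := by decide +kernel

theorem dData_eq : ∀ d : Fin 4, ∀ n : Fin 4096, monF (dPerm d) 0 (monF 1 (dAux d) n) =
    monF 1 (dExp d) (monF 1 (dAux d) (monF (dPerm d) 0 n)) :=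
  fun d => forall_grid ((show ∀ d : Fin 4, ∀ i : Fin 64, ∀ j : Fin 64,
    monF (dPerm d) 0 (monF 1 (dAux d) ⟨64 * i.val + j.val, by omega⟩) = monF 1 (dExp d)
      (monF 1 (dAux d) (monF (dPerm d) 0 ⟨64 * i.val + j.val, by omega⟩)) by decide +kernel) d)

theorem dData_prod : ∀ n : Fin 4096,
    monF 1 (dExp 0) (monF 1 (dExp 1) (monF 1 (dExp 2) (monF 1 (dExp 3) n))) = om n :=
  forall_grid (by decide +kernel)

end CfsgLib.LargeFischer64
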