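import Cfsg.Agent.LargeFischer64.Split
import Cfsg.Agent.LargeFischer85.Frame
import Cfsg.Agent.LargeFischer85.Orbits
import Cfsg.Agent.LargeFischer88.Conjugates

/-!
Large Fischer type: the centraliser in `H` of a subgroup of order three whose product with `Q` is
normal is quasisimple, with centre cyclic of order six and the unitary group as central quotient.
-/

set_option autoImplicit false

namespace CfsgLib.LargeFischer64

open Cfsg CfsgLib.LargeFischer85

variable {G : Type*} [Group G] [Finite G] {z : G}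
  {Q : Subgroup (Subgroup.centralizer ({z} : Set G))} [Q.Normal]

theorem centralizer_X (hF : IsOfLargeFischerTypeAt z Q)
    (X : Subgroup (Subgroup.centralizer ({z} : Set G))) (hX : Nat.card X = 3)
    (hXQ : (X ⊔ Q).Normal) :
    Cfsg.IsQuasisimple ↥(Subgroup.centralizer (X : Set (Subgroup.centralizer ({z} : Set G)))) ∧
      IsCyclic ↥(Subgroup.center ↥(Subgroup.centralizer (X : Set (Subgroup.centralizer ({z} : Set G))))) ∧
      Nat.card ↥(Subgroup.center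
        ↥(Subgroup.centralizer (X : Set (Subgroup.centralizer ({z} : Set G))))) = 6 ∧
      Nonempty (↥(Subgroup.centralizer (X : Set (Subgroup.centralizer ({z} : Set G)))) ⧸
        Subgroup.center ↥(Subgroup.centralizer (X : Set (Subgroup.centralizer ({z} : Set G)))) ≃*
          CfsgLib.U43Mult.G9) := by
  obtain ⟨q, pr, act, hA⟩ := exists_action hF
  obtain ⟨Mb, Cb, hMn, hCn, hle, hC3, hidx, ⟨eG⟩⟩ := exists_sections hF
  haveI := hMn
  haveI := hCn
  obtain ⟨φ, hf⟩ := exists_frame_of hA.quad act hA.act_add hA.act_q hA.act_inj Mb Cb hle hC3 hidx eG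
  obtain ⟨cl, hcl⟩ := exists_orbit_class hf.group
  haveI : Nontrivial (↥Mb ⧸ Cb.subgroupOf Mb) := eG.toEquiv.nontrivial
  have cf : Conf z Q q pr act Mb Cb φ cl := by
    refine ⟨setting hF, hA, ⟨hf, hA.act_add, hA.act_q, hA.act_inj, hcl⟩, ?_⟩
    exact IsSimpleGroup.isSimpleGroup_of_surjective eG.symm.toMonoidHom eG.symm.surjective
  obtain ⟨t, ht⟩ := hA.pr_surj (φ n0)
  have htn : φ.symm (pr t) = n0 := by rw [ht, Equiv.symm_apply_apply]
  have ht2 : inTwo cl (φ.symm (pr t)) := htn ▸ inTwo_n0 cl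
  obtain ⟨g₀, ⟨hgc, hgQ⟩, hne⟩ := hF.1.2.2.2.2
  obtain ⟨h₁, hh₁⟩ := LargeFischer88.exists_conj_of_inTwo hF hA hf hcl ⟨⟨g₀ * z * g₀⁻¹, hgc⟩, hgQ⟩ t
    (LargeFischer88.conj_inTwo hF hA hf hcl _ (isConj_iff.2 ⟨g₀, rfl⟩) hne) ht2
  set g₁ : G := (h₁ : G) * g₀ with hg₁
  have hg₁z : g₁ * z * g₁⁻¹ = ((t : Subgroup.centralizer ({z} : Set G)) : G) := by
    rw [← hh₁, hg₁]
    simp only [Subgroup.coe_mul, InvMemClass.coe_inv]
    group
  have htz : ((t : Subgroup.centralizer ({z} : Set G)) : G) ≠ z := by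
    intro e
    refine ht2.1 ?_
    rw [(hA.pr_zero t).2 (Or.inr e), Equiv.symm_apply_eq, hf.map_zero]
  have hcard : 32 ≤ Nat.card ↥(Q.map (Subgroup.centralizer ({z} : Set G)).subtype) := by
    rw [card_map hF.1.2.2.2.1]; norm_num
  have hzU : z ∈ (Q.map (Subgroup.centralizer ({z} : Set G)).subtype).map
      (MulAut.conj g₁).toMonoidHom :=
    LargeExtraspecial.mem_conj_of_conj_mem (setting hF) hcard g₁ (hg₁z ▸ coe_mem_map.2 t.2)
      (hg₁z ▸ htz)
  obtain ⟨w, hw, hwe⟩ := (LargeExtraspecial.mem_conj_iff _ _ _).1 hzU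
  have hwz : (w : G) ≠ z := by
    intro e
    refine htz ?_
    have e1 : z = g₁⁻¹ * z * g₁ := e.symm.trans hwe
    rw [← hg₁z]
    calc g₁ * z * g₁⁻¹ = g₁ * (g₁⁻¹ * z * g₁) * g₁⁻¹ := by rw [← e1]
      _ = z := by group
  have hwc : IsConj z (w : G) := isConj_iff.2 ⟨g₁⁻¹, by rw [inv_inv]; exact hwe.symm⟩
  obtain ⟨h₂, hh₂⟩ := LargeFischer88.exists_conj_of_inTwo hF hA hf hcl ⟨w, hw⟩ t
    (LargeFischer88.conj_inTwo hF hA hf hcl ⟨w, hw⟩ hwc hwz) ht2
  set g : G := g₁ * (h₂ : G)⁻¹ with hg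
  have hh2z : (h₂ : G)⁻¹ * z * h₂ = z := by
    have h := Subgroup.mem_centralizer_singleton_iff.1 h₂.2
    rw [mul_assoc, ← h, inv_mul_cancel_left]
  have hgz : g * z * g⁻¹ = ((t : Subgroup.centralizer ({z} : Set G)) : G) := by
    rw [← hg₁z, hg]
    calc g₁ * (h₂ : G)⁻¹ * z * (g₁ * (h₂ : G)⁻¹)⁻¹ = g₁ * ((h₂ : G)⁻¹ * z * h₂) * g₁⁻¹ := by group
      _ = g₁ * z * g₁⁻¹ := by rw [hh2z]
  have hgz' : g⁻¹ * z * g = ((t : Subgroup.centralizer ({z} : Set G)) : G) := by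
    rw [← hh₂, hg]
    simp only [Subgroup.coe_mul, InvMemClass.coe_inv]
    rw [show (w : G) = g₁⁻¹ * z * g₁ from hwe]
    group
  obtain ⟨-, hdata⟩ := LargeFischer88.conj_data hF hA hf hcl _ t.1.2 t.2 htz g hgz
  have hXeq : stabN φ act = ((Subgroup.centralizer ({z} : Set G) ⊓
      Subgroup.centralizer ({((t : Subgroup.centralizer ({z} : Set G)) : G)} : Set G)).subgroupOf
        (Subgroup.centralizer ({z} : Set G))).map (QuotientGroup.mk' Q) := by
    ext k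
    rw [mem_stabilizer_iff hF hA t (fun e => ht2.1 (by rw [e, Equiv.symm_apply_eq, hf.map_zero])) k,
      mem_stabN, frameHom_apply, Equiv.symm_apply_eq, ht]
  obtain ⟨-, hI, hEX, hnorm, hEe, hE32, hn, ⟨iso⟩⟩ := hdata (stabN φ act) (Eim z Q g) hXeq (by
    rw [Eim, Rg, Subgroup.inf_subgroupOf_right])
  haveI := hn
  have hsq : ∀ x ∈ Eim z Q g, x * x = 1 := fun x hx => by rw [← pow_two]; exact hEe.2 x hx
  have hP : PairData φ act (Eim z Q g) :=
    ⟨hEX, hnorm, fun x hx y hy => congrArg Subtype.val (hEe.1.1.comm ⟨x, hx⟩ ⟨y, hy⟩), hsq, hE32,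
      iso.toMonoidHom.comp (QuotientGroup.mk' _),
      iso.surjective.comp (QuotientGroup.mk'_surjective _), by
        ext x
        rw [MonoidHom.mem_ker, MonoidHom.comp_apply, MulEquiv.coe_toMonoidHom,
          MulEquiv.map_eq_one_iff, QuotientGroup.mk'_apply, QuotientGroup.eq_one_iff]⟩
  have tw : Twin z Q pr φ g t t := ⟨hgz.symm, hgz'.symm, htn, htn, hI⟩
  obtain ⟨hq, hcy, h6, ⟨e⟩⟩ := cf.conclusion hX hXQ hP (mem_derived cf tw hP hX hXQ)
  exact ⟨hq, hcy, h6, ⟨e.trans eG⟩⟩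

end CfsgLib.LargeFischer64
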