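import Cfsg.Agent.LargeFischer85.Defs

/-!
Large Fischer type: in a quadratic space of dimension twelve, a vector orthogonal to the fixed part of
a totally singular subspace of dimension six lies in the sum of that subspace and the moved space.
-/

set_option autoImplicit false

namespace CfsgLib.LargeFischer64

open CfsgLib.LargeFischer85

theorem pol_comm (q : V → ZMod 2) (a b : V) : pol q a b = pol q b a := by
  unfold pol; rw [add_comm a b]; ring

theorem pol_zero_left {q : V → ZMod 2} (hq : IsQuad q) (c : V) : pol q 0 c = 0 := by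
  have := hq.add_left 0 0 c
  rw [add_zero] at this
  simpa using this

theorem pol_add_right {q : V → ZMod 2} (hq : IsQuad q) (a b c : V) :
    pol q a (b + c) = pol q a b + pol q a c := by
  rw [pol_comm, hq.add_left, pol_comm q b, pol_comm q c]

theorem pol_smul_left {q : V → ZMod 2} (hq : IsQuad q) (r : ZMod 2) (a c : V) :
    pol q (r • a) c = r • pol q a c := by
  obtain rfl | rfl : r = 0 ∨ r = 1 := by revert r; decide
  · simp [pol_zero_left hq]
  · simp

/-- The polar form as a bilinear form. -/
def bil (q : V → ZMod 2) (hq : IsQuad q) : LinearMap.BilinForm (ZMod 2) V :=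
  LinearMap.mk₂ (ZMod 2) (pol q) (hq.add_left) (pol_smul_left hq) (pol_add_right hq)
    (fun r a c => by rw [pol_comm, pol_smul_left hq, pol_comm])

theorem bil_apply (q : V → ZMod 2) (hq : IsQuad q) (a b : V) : bil q hq a b = pol q a b := rfl

theorem bil_refl (q : V → ZMod 2) (hq : IsQuad q) : (bil q hq).IsRefl := fun a b h => by
  rwa [bil_apply, pol_comm, ← bil_apply q hq] 

theorem bil_nondeg (q : V → ZMod 2) (hq : IsQuad q) : (bil q hq).Nondegenerate := by
  refine ⟨fun a ha => ?_, fun a ha => ?_⟩
  all_goals
    by_contra h0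
    obtain ⟨b, hb⟩ := hq.nondeg a h0
  · exact hb (ha b)
  · exact hb (by rw [pol_comm]; exact ha b)

theorem mem_sup_moved {q : V → ZMod 2} (hq : IsQuad q) (W : AddSubgroup V)
    (hW : Nat.card ↥W = 2 ^ 6) (hsing : ∀ w ∈ W, q w = 0) (L : V →+ V)
    (hL : Function.Surjective L) (hLq : ∀ v, q (L v) = q v) (u : V)
    (h : ∀ i ∈ W, L i = i → pol q u i = 0) : ∃ i ∈ W, ∃ w, u = i + (L w + w) := by
  let B := bil q hq
  let W1 : Submodule (ZMod 2) V := AddSubgroup.toZModSubmodule 2 W
  have hmem : ∀ v, v ∈ W1 ↔ v ∈ W := fun v => Iff.rfl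
  let M : V →ₗ[ZMod 2] V := AddMonoidHom.toZModLinearMap 2 (L + AddMonoidHom.id V)
  have hM : ∀ w, M w = L w + w := fun w => rfl
  let W2 : Submodule (ZMod 2) V := LinearMap.range M
  have hperp : B.orthogonal W1 = W1 := by
    have hle : W1 ≤ B.orthogonal W1 := by
      intro m hm n hn
      show pol q n m = 0
      rw [pol, hsing _ (W.add_mem hn hm), hsing _ hn, hsing _ hm]; simp
    refine (Submodule.eq_of_le_of_finrank_le hle ?_).symm
    have hfin : Module.finrank (ZMod 2) W1 = 6 := by
      have h1 := Module.natCard_eq_pow_finrank (K := ZMod 2) (V := W1)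
      rw [Nat.card_zmod] at h1
      refine (Nat.pow_right_injective (le_refl 2) ?_).symm
      exact (hW.symm.trans (by exact h1))
    rw [LinearMap.BilinForm.finrank_orthogonal (bil_nondeg q hq), hfin,
      Module.finrank_fintype_fun_eq_card]
    simp
  have hu : u ∈ B.orthogonal (B.orthogonal (W1 ⊔ W2)) := by
    intro n hn
    have hn1 : n ∈ W := by
      rw [← hmem, ← hperp]
      exact LinearMap.BilinForm.orthogonal_le le_sup_left hn
    have hn2 : L n = n := by
      by_contra hne
      have hne' : L n + n ≠ 0 := fun e => hne (by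
        funext i
        have := congrFun e i
        simp only [Pi.add_apply, Pi.zero_apply] at this
        revert this; generalize L n i = x; generalize n i = y; revert x y; decide)
      obtain ⟨b, hb⟩ := hq.nondeg _ hne'
      obtain ⟨w, rfl⟩ := hL b
      refine hb ?_
      have h1 : pol q (M w) n = 0 :=
        LinearMap.BilinForm.orthogonal_le (le_sup_right : W2 ≤ W1 ⊔ W2) hn _ ⟨w, rfl⟩
      have h2 : pol q (L n) (L w) = pol q n w := by
        simp only [pol, ← map_add, hLq]
      rw [hM, hq.add_left, pol_comm q (L w), pol_comm q w] at h1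
      rw [hq.add_left, h2, add_comm, h1]
    show pol q n u = 0
    rw [pol_comm]
    exact h n hn1 hn2
  rw [LinearMap.BilinForm.orthogonal_orthogonal (bil_nondeg q hq) (bil_refl q hq),
    Submodule.mem_sup] at hu
  obtain ⟨i, hi, m, ⟨w, rfl⟩, rfl⟩ := hu
  exact ⟨i, hi, w, rfl⟩

end CfsgLib.LargeFischer64
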