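import Cfsg.Agent.LargeFischer64.Lifting

/-!
Large Fischer type: `z` is in the derived group of the centraliser of the element of order three.

Otherwise the group of order sixteen over the standard stabiliser is carried by conjugation into a
fourspace of singular vectors of a single orbit, invariant and moved nontrivially by two monomial
elements; no such space exists.
-/

set_option autoImplicit false

namespace CfsgLib.LargeFischer64

open CfsgLib.LargeFischer85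
open scoped commutatorElement

variable {G : Type*} [Group G] [Finite G] {z : G} {Q : Subgroup ↥(Cz z)} [Q.Normal]
  {q : V → ZMod 2} {pr : ↥Q → V} {act : (↥(Cz z) ⧸ Q) →* Equiv.Perm V}
  {Mb Cb : Subgroup (↥(Cz z) ⧸ Q)} [Cb.Normal] {φ : Fin 4096 ≃ V} {cl : ZMod 3}
  {g : G} {a a' : ↥Q} {X : Subgroup ↥(Cz z)}

theorem epsF_moves : epsF 256 ≠ 256 ∧ sigF 1 ≠ 1 := by decide +kernel

theorem vadd_eq_zero : ∀ a b : Fin 4096, vadd a b = 0 → a = b := by
  intro a b h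
  have h1 : (a.val ^^^ b.val) % 4096 = 0 := congrArg Fin.val h
  have h2 : a.val ^^^ b.val < 2 ^ 12 := Nat.xor_lt_two_pow a.2 b.2
  rw [Nat.mod_eq_of_lt (by simpa using h2)] at h1
  exact Fin.ext (by
    have := congrArg (· ^^^ b.val) h1
    simpa [Nat.xor_assoc] using this)

namespace NoCentre

variable (nc : NoCentre z Q q pr act Mb Cb φ cl g a a' X)
include nc

/-- The conjugation of the part over the stabiliser into the stabiliser of the other vector. -/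
theorem conj_mem_Cz {x : ↥(Cz z)} (hx : x ∈ Q) {h : ↥(Cz z)} (hh : h ∈ Pgp Q φ act X) :
    g⁻¹ * ((x * h * x⁻¹ : ↥(Cz z)) : G) * g ∈ Cz z := by
  have h1 : ((x * h * x⁻¹ : ↥(Cz z)) : G) * ((a : ↥(Cz z)) : G) =
      ((a : ↥(Cz z)) : G) * ((x * h * x⁻¹ : ↥(Cz z)) : G) := congrArg Subtype.val (nc.conj_fix hx hh)
  rw [nc.twin.a_eq] at h1
  refine Subgroup.mem_centralizer_singleton_iff.mpr ?_
  calc g⁻¹ * ((x * h * x⁻¹ : ↥(Cz z)) : G) * g * z
      = g⁻¹ * (((x * h * x⁻¹ : ↥(Cz z)) : G) * (g * z * g⁻¹)) * g := by group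
    _ = z * (g⁻¹ * ((x * h * x⁻¹ : ↥(Cz z)) : G) * g) := by rw [h1]; group

theorem absurd_of_not_mem : False := by
  classical
  obtain ⟨x, hx, hxW⟩ := nc.exists_conj_all
  set π := QuotientGroup.mk' Q with hπ
  set E := Eim z Q g with hEdef
  set K := stabN φ act ⊓ Mb with hK
  let η : ↥(Pgp Q φ act X) →* ↥(Cz z) := MonoidHom.mk'
    (fun h => ⟨g⁻¹ * ((x * h * x⁻¹ : ↥(Cz z)) : G) * g, nc.conj_mem_Cz hx h.2⟩) fun h k => by
      apply Subtype.ext
      simp only [Subgroup.coe_mul, InvMemClass.coe_inv]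
      group
  have hηinj : ∀ h, η h = 1 → h = 1 := by
    intro h he
    have e : g⁻¹ * ((x * h * x⁻¹ : ↥(Cz z)) : G) * g = 1 := congrArg Subtype.val he
    have e1 : x * h * x⁻¹ = 1 := Subtype.ext (by
      calc ((x * h * x⁻¹ : ↥(Cz z)) : G)
          = g * (g⁻¹ * ((x * h * x⁻¹ : ↥(Cz z)) : G) * g) * g⁻¹ := by group
        _ = 1 := by rw [e]; group)
    exact Subtype.ext (conj_eq_one_iff.mp e1)
  have hperf : ∀ h : ↥(Pgp Q φ act X), h ∈ commutator ↥(Pgp Q φ act X) := by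
    intro h
    have h1 : (h : ↥(Cz z)) ∈ (commutator ↥(Pgp Q φ act X)).map (Pgp Q φ act X).subtype := by
      rw [Subgroup.map_subtype_commutator, nc.P_perfect]; exact h.2
    obtain ⟨k, hk, hke⟩ := h1
    rwa [← Subtype.ext hke]
  have hcomMb : commutator ↥(Pgp Q φ act X) ≤ Mb.comap (π.comp η) := by
    rw [commutator_def, Subgroup.commutator_le]
    intro h _ k _
    rw [Subgroup.mem_comap, map_commutatorElement, commutatorElement_def]
    simp only [Subgroup.mul_mem_iff_of_index_two nc.conf.ctx.frame.index_Mb, inv_mem_iff]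
    tauto
  have hζmem : ∀ h, π (η h) ∈ K := by
    intro h
    refine Subgroup.mem_inf.mpr ⟨mem_stabN.mpr ?_, hcomMb (hperf h)⟩
    have h1 : (η h) * a' * (η h)⁻¹ = (a' : ↥(Cz z)) := by
      rw [mul_inv_eq_iff_eq_mul]
      apply Subtype.ext
      show g⁻¹ * ((x * h * x⁻¹ : ↥(Cz z)) : G) * g * ((a' : ↥(Cz z)) : G) =
        ((a' : ↥(Cz z)) : G) * (g⁻¹ * ((x * h * x⁻¹ : ↥(Cz z)) : G) * g)
      have hz : ((x * h * x⁻¹ : ↥(Cz z)) : G) * z = z * ((x * h * x⁻¹ : ↥(Cz z)) : G) :=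
        Subgroup.mem_centralizer_singleton_iff.mp (x * h * x⁻¹ : ↥(Cz z)).2
      rw [nc.twin.a'_eq]
      calc g⁻¹ * ((x * h * x⁻¹ : ↥(Cz z)) : G) * g * (g⁻¹ * z * g)
          = g⁻¹ * (((x * h * x⁻¹ : ↥(Cz z)) : G) * z) * g := by group
        _ = g⁻¹ * z * g * (g⁻¹ * ((x * h * x⁻¹ : ↥(Cz z)) : G) * g) := by rw [hz]; group
    have h2 := nc.conf.nu_conj (η h) a' a' h1.symm
    rwa [nc.twin.nu_a'] at h2
  let ζ : ↥(Pgp Q φ act X) →* ↥K := (π.comp η).codRestrict K hζmem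
  obtain ⟨ψ, hψ, hψker⟩ := nc.pair.quot
  let ρ : ↥(Pgp Q φ act X) →* ↥(alternatingGroup (Fin 6)) := ψ.comp
    ((π.comp (Pgp Q φ act X).subtype).codRestrict (stabN φ act)
      fun h => (Subgroup.mem_inf.mp h.2).2)
  let W' := (Wgp Q Mb g X).subgroupOf (Pgp Q φ act X)
  have hEmem : ∀ k : ↥(stabN φ act), ψ k = 1 ↔ (k : ↥(Cz z) ⧸ Q) ∈ E := by
    intro k
    rw [← MonoidHom.mem_ker, hψker, Subgroup.mem_subgroupOf]
  have hρker : ρ.ker = W' := by
    ext h
    have hD := (Subgroup.mem_inf.mp h.2).1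
    constructor
    · intro hh
      exact Subgroup.mem_inf.mpr ⟨hD, Subgroup.mem_inf.mpr ⟨(hEmem _).mp hh, nc.D_mem_Mb hD⟩⟩
    · intro hh
      exact (hEmem _).mpr (Subgroup.mem_inf.mp (Subgroup.mem_inf.mp hh).2).1
  have hρ : Function.Surjective ρ := by
    intro y
    obtain ⟨⟨k, hk⟩, hkM, rfl⟩ : y ∈ (Mb.subgroupOf (stabN φ act)).map ψ := by
      rw [nc.conf.ctx.map_stab_inf_eq_top nc.pair ψ hψ hψker]; exact Subgroup.mem_top _
    obtain ⟨d, hd, hde⟩ := nc.exists_D (Subgroup.mem_subgroupOf.mp hkM)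
    exact ⟨⟨d, Subgroup.mem_inf.mpr ⟨hd, Subgroup.mem_comap.mpr (hde.symm ▸ hk)⟩⟩,
      congrArg ψ (Subtype.ext hde)⟩
  have hηW : ∀ h ∈ W', η h ∈ Q := by
    intro h hh
    exact nc.conf.mem_Q.mp (mem_Rg.mp (hxW _ hh))
  have hWζ : W' ≤ ζ.ker := fun h hh => MonoidHom.mem_ker.mpr (Subtype.ext
    ((QuotientGroup.eq_one_iff _).mpr (hηW h hh)))
  have hdich : ∀ N : Subgroup ↥(Pgp Q φ act X), N.Normal → W' ≤ N → N = W' ∨ N = ⊤ := by
    intro N hN hle
    by_cases hb : N.map ρ = ⊥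
    · left
      rw [Subgroup.map_eq_bot_iff, hρker] at hb
      exact le_antisymm hb hle
    · right
      have ht := normal_alt_eq_top (hN.map ρ hρ) hb
      refine (Subgroup.eq_top_iff' _).mpr fun h => ?_
      obtain ⟨n, hn, hne⟩ : ρ h ∈ N.map ρ := ht ▸ Subgroup.mem_top _
      have : n⁻¹ * h ∈ ρ.ker := by rw [MonoidHom.mem_ker, map_mul, map_inv, hne, inv_mul_cancel]
      rw [hρker] at this
      simpa using mul_mem hn (hle this)
  obtain ⟨e, s, hl⟩ := nc.conf.ctx.exists_lifts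
  obtain ⟨heS, hsS, -, he3, -⟩ := nc.conf.ctx.lifts_stab hl
  have he1 : e ≠ 1 := by
    intro e1
    have := hl.e_act 256
    rw [e1, map_one (frameHom φ act), Equiv.Perm.one_apply] at this
    exact epsF_moves.1 this.symm
  have hs1 : s ≠ 1 := by
    intro e1
    have := hl.s_act 1
    rw [e1, map_one (frameHom φ act), Equiv.Perm.one_apply] at this
    exact epsF_moves.2 this.symm
  have hζne : ζ.ker ≠ ⊤ := by
    intro ht
    obtain ⟨d, hd, hde⟩ := nc.exists_D hl.e_mem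
    let p : ↥(Pgp Q φ act X) :=
      ⟨d, Subgroup.mem_inf.mpr ⟨hd, Subgroup.mem_comap.mpr (hde.symm ▸ heS)⟩⟩
    have hpQ : η p ∈ Q := (QuotientGroup.eq_one_iff _).mp
      (congrArg Subtype.val (MonoidHom.mem_ker.mp (show p ∈ ζ.ker from ht ▸ Subgroup.mem_top p)))
    have h4 : η p ^ 4 = 1 := by
      apply Subtype.ext
      rw [SubmonoidClass.coe_pow, pow_four']
      rcases (nc.conf.setting.mem_iff _).1 (LargeExtraspecial.sq_mem nc.conf.setting.extraspecial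
        (nc.conf.mem_Q.mpr hpQ)) with e1 | e1
      · rw [e1, one_mul]; rfl
      · rw [e1, nc.conf.setting.z_mul_z]; rfl
    have hd4 : d ^ 4 = 1 := congrArg Subtype.val (hηinj (p ^ 4) (by rw [map_pow, h4]))
    apply he1
    calc e = e ^ 4 * (e ^ 3)⁻¹ := by group
      _ = 1 := by rw [he3, ← hde, ← map_pow, hd4, map_one, inv_one, one_mul]
  let χ : ↥(Pgp Q φ act X) →* ↥(alternatingGroup (Fin 6)) :=
    ψ.comp ((Subgroup.inclusion (inf_le_left : K ≤ stabN φ act)).comp ζ)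
  have hζχ : ζ.ker ≤ χ.ker := fun h hh => by
    rw [MonoidHom.mem_ker] at hh ⊢
    simp only [χ, MonoidHom.comp_apply, hh, map_one]
  have hχne : χ.ker ≠ ⊤ := by
    intro ht
    refine hζne (top_unique fun h _ => ?_)
    have hmem : ∀ k, π (η k) ∈ E := fun k => (hEmem _).mp
      (MonoidHom.mem_ker.mp (show k ∈ χ.ker from ht ▸ Subgroup.mem_top k))
    refine (show commutator ↥(Pgp Q φ act X) ≤ ζ.ker from ?_) (hperf h)
    rw [commutator_def, Subgroup.commutator_le]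
    intro k _ l _
    rw [MonoidHom.mem_ker, map_commutatorElement, commutatorElement_eq_one_iff_mul_comm]
    exact Subtype.ext (nc.pair.comm _ (hmem k) _ (hmem l))
  have hχker : χ.ker = W' := (hdich _ inferInstance (hWζ.trans hζχ)).resolve_right hχne
  have hζker : ζ.ker = W' := le_antisymm (hχker ▸ hζχ) hWζ
  have hY : Nat.card ↥ζ.range = 360 := by
    rw [← Nat.card_congr (QuotientGroup.quotientKerEquivRange ζ).toEquiv, hζker, ← hρker,
      Nat.card_congr (QuotientGroup.quotientKerEquivOfSurjective ρ hρ).toEquiv, card_alt]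
  have hKcard : Nat.card ↥K = 5760 := by
    let ψ' : ↥K →* ↥(alternatingGroup (Fin 6)) :=
      ψ.comp (Subgroup.inclusion (inf_le_left : K ≤ stabN φ act))
    have hψ' : Function.Surjective ψ' := by
      intro y
      obtain ⟨⟨k, hk⟩, hkM, rfl⟩ : y ∈ (Mb.subgroupOf (stabN φ act)).map ψ := by
        rw [nc.conf.ctx.map_stab_inf_eq_top nc.pair ψ hψ hψker]; exact Subgroup.mem_top _
      exact ⟨⟨k, Subgroup.mem_inf.mpr ⟨hk, Subgroup.mem_subgroupOf.mp hkM⟩⟩, rfl⟩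
    have hker : ψ'.ker.map K.subtype = E16 Mb E := by
      ext k
      constructor
      · rintro ⟨y, hy, rfl⟩
        exact Subgroup.mem_inf.mpr ⟨(hEmem _).mp hy, (Subgroup.mem_inf.mp y.2).2⟩
      · intro hk
        exact ⟨⟨k, Subgroup.mem_inf.mpr ⟨nc.pair.le (Subgroup.mem_inf.mp hk).1,
          (Subgroup.mem_inf.mp hk).2⟩⟩, (hEmem _).mpr (Subgroup.mem_inf.mp hk).1, rfl⟩
    rw [Subgroup.card_eq_card_quotient_mul_card_subgroup ψ'.ker,
      Nat.card_congr (QuotientGroup.quotientKerEquivOfSurjective ψ' hψ').toEquiv, card_alt,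
      ← Subgroup.card_map_of_injective (Subgroup.subtype_injective K) (K := ψ'.ker), hker,
      nc.conf.ctx.card_E16 nc.pair]
  obtain ⟨m, p₁, p₂, hp₁, hp₂⟩ : ∃ (m : ↥(Cz z) ⧸ Q) (p₁ p₂ : ↥(Pgp Q φ act X)),
      π (η p₁) = m⁻¹ * e * m ∧ π (η p₂) = m⁻¹ * s * m := by
    haveI : Fact (Nat.Prime 3) := ⟨Nat.prime_three⟩
    obtain ⟨T₀, hTle, hT₀, heT, hsT⟩ := nc.conf.ctx.exists_nine hl
    have hT : IsPGroup 3 ↥(T₀.subgroupOf K) :=
      hT₀.of_equiv (Subgroup.subgroupOfEquivOfLe hTle).symm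
    have hidx : ¬ 3 ∣ Nat.card (↥K ⧸ ζ.range) := by
      have h := Subgroup.card_eq_card_quotient_mul_card_subgroup ζ.range
      rw [hKcard, hY] at h
      omega
    obtain ⟨w, hw⟩ := hT.nonempty_fixed_point_of_prime_not_dvd_card (↥K ⧸ ζ.range) hidx
    obtain ⟨m, rfl⟩ := QuotientGroup.mk_surjective w
    have hget : ∀ t ∈ T₀, ∃ p, π (η p) = (m : ↥(Cz z) ⧸ Q)⁻¹ * t * m := by
      intro t ht
      let t' : ↥K := ⟨t, hTle ht⟩
      have h1 : (((t' * m : ↥K)) : ↥K ⧸ ζ.range) = (m : ↥K ⧸ ζ.range) :=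
        hw ⟨t', Subgroup.mem_subgroupOf.mpr ht⟩
      rw [QuotientGroup.eq] at h1
      obtain ⟨p, hp⟩ := inv_mem h1
      refine ⟨p, (congrArg Subtype.val hp).trans ?_⟩
      simp only [InvMemClass.coe_inv, Subgroup.coe_mul, t']
      group
    obtain ⟨p₁, hp₁⟩ := hget e heT
    obtain ⟨p₂, hp₂⟩ := hget s hsT
    exact ⟨m, p₁, p₂, hp₁, hp₂⟩
  let inP : ↥(Wgp Q Mb g X) → ↥(Pgp Q φ act X) := fun b => ⟨b, nc.W_le_P b.2⟩
  let u : ↥(Wgp Q Mb g X) → ↥Q := fun b => ⟨η (inP b), hηW (inP b) b.2⟩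
  let v : ↥(Wgp Q Mb g X) → Fin 4096 := fun b => frameHom φ act m (nu φ pr (u b))
  have hvmul : ∀ b c, v (b * c) = vadd (v b) (v c) := by
    intro b c
    have : u (b * c) = u b * u c := Subtype.ext (η.map_mul (inP b) (inP c))
    simp only [v, this, nc.conf.nu_mul, nc.conf.ctx.map_vadd]
  have hv0 : ∀ b, v b = 0 → b = 1 := by
    intro b hb
    have h1 : nu φ pr (u b) = 0 :=
      (frameHom φ act m).injective (hb.trans (nc.conf.ctx.map_zero m).symm)
    rcases nc.conf.nu_eq_zero.mp h1 with h2 | h2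
    · exact Subtype.ext (congrArg Subtype.val (hηinj (inP b) h2) :)
    · exfalso
      have h3 : g⁻¹ * ((x * b * x⁻¹ : ↥(Cz z)) : G) * g = z := congrArg Subtype.val h2
      have h4 : x * b * x⁻¹ = a := Subtype.ext (by
        rw [nc.twin.a_eq]
        calc ((x * b * x⁻¹ : ↥(Cz z)) : G)
            = g * (g⁻¹ * ((x * b * x⁻¹ : ↥(Cz z)) : G) * g) * g⁻¹ := by group
          _ = g * z * g⁻¹ := by rw [h3])
      have hbQ : (b : ↥(Cz z)) ∈ Q := by
        have : (b : ↥(Cz z)) = x⁻¹ * a * x := by rw [← h4]; group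
        rw [this]
        exact mul_mem (mul_mem (inv_mem hx) a.2) hx
      have hb1 := nc.D_inj (Subgroup.mem_inf.mp b.2).1 ((QuotientGroup.eq_one_iff _).mpr hbQ)
      rw [hb1, mul_one, mul_inv_cancel] at h4
      exact nc.conf.a_ne_one nc.twin h4.symm
  have hvsing : ∀ b, sing (v b) := by
    intro b
    show sing (frameHom φ act m (nu φ pr (u b)))
    rw [nc.conf.ctx.map_sing, nc.conf.ctx.frame.sing_iff, ← nc.conf.pr_eq_of_nu,
      nc.conf.action.pr_sq]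
    apply Subtype.ext
    show η (inP b) * η (inP b) = 1
    rw [← map_mul, show inP b * inP b = 1 from Subtype.ext (nc.W_sq b.2), map_one]
  have hconj : ∀ (p : ↥(Pgp Q φ act X)) (b : ↥(Wgp Q Mb g X)),
      nu φ pr (u ⟨p * b * (p : ↥(Cz z))⁻¹, nc.W_conj p.2 b.2⟩) =
        frameHom φ act (π (η p)) (nu φ pr (u b)) := by
    intro p b
    refine (nc.conf.nu_conj (η p) (u b) _ ?_).symm
    show η (inP _) = η p * η (inP b) * (η p)⁻¹
    rw [← map_inv, ← map_mul, ← map_mul]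
    rfl
  have hone : ∀ b c, b ≠ 1 → c ≠ 1 → (inOne cl (v b) ↔ inOne cl (v c)) := by
    intro b c hb hc
    obtain ⟨p, hp, hpe⟩ := nc.transitive_W b.2 (fun e1 => hb (Subtype.ext e1)) c.2
      (fun e1 => hc (Subtype.ext e1))
    have h1 := hconj ⟨p, hp⟩ b
    have h2 : (⟨p * b * p⁻¹, nc.W_conj hp b.2⟩ : ↥(Wgp Q Mb g X)) = c := Subtype.ext hpe
    simp only [h2] at h1
    show inOne cl (frameHom φ act m _) ↔ inOne cl (frameHom φ act m _)
    rw [nc.conf.ctx.map_one', nc.conf.ctx.map_one', h1, nc.conf.ctx.map_one']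
  have hmove : ∀ (t : ↥(Cz z) ⧸ Q) (F : Fin 4096 → Fin 4096),
      (∀ n, frameHom φ act t n = F n) → t ≠ 1 → ∀ p, π (η p) = m⁻¹ * t * m →
      ∃ c : ↥(Wgp Q Mb g X), c ≠ 1 ∧ ∃ n, v c = vadd n (F n) := by
    intro t F hF ht1 p hp
    let cj : ↥(Wgp Q Mb g X) → ↥(Wgp Q Mb g X) :=
      fun b => ⟨p * b * (p : ↥(Cz z))⁻¹, nc.W_conj p.2 b.2⟩
    have hcj : ∀ b, v (cj b) = F (v b) := by
      intro b
      simp only [v, cj, hconj, hp, map_mul, Equiv.Perm.mul_apply, ← hF]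
      rw [← Equiv.Perm.mul_apply (frameHom φ act m), ← map_mul, mul_inv_cancel, map_one,
        Equiv.Perm.one_apply]
    obtain ⟨b, hb⟩ : ∃ b, cj b ≠ b := by
      by_contra hall
      push Not at hall
      have hcen : ∀ k ∈ E16 Mb E, π p * k = k * π p := by
        intro k hk
        obtain ⟨b, hb, rfl⟩ := nc.exists_W hk
        have h1 : (p : ↥(Cz z)) * b * (p : ↥(Cz z))⁻¹ = b := congrArg Subtype.val (hall ⟨b, hb⟩)
        rw [← map_mul, ← map_mul, mul_inv_eq_iff_eq_mul.mp h1]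
      have hpE := nc.conf.ctx.mem_of_centralizes nc.pair (Subgroup.mem_inf.mp p.2).2 hcen
      have hpW : p ∈ W' := Subgroup.mem_inf.mpr ⟨(Subgroup.mem_inf.mp p.2).1,
        Subgroup.mem_inf.mpr ⟨hpE, nc.D_mem_Mb (Subgroup.mem_inf.mp p.2).1⟩⟩
      have h2 : π (η p) = 1 := (QuotientGroup.eq_one_iff _).mpr (hηW p hpW)
      apply ht1
      rw [hp] at h2
      calc t = m * (m⁻¹ * t * m) * m⁻¹ := by group
        _ = 1 := by rw [h2]; group
    refine ⟨b * cj b, fun e1 => hb ?_, v b, by rw [hvmul, hcj]⟩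
    have hbb : b * b = 1 := Subtype.ext (nc.W_sq b.2)
    exact mul_left_cancel (a := b) (e1.trans hbb.symm)
  obtain ⟨c₁, hc₁, n₁, hn₁⟩ := hmove e epsF hl.e_act he1 p₁ hp₁
  obtain ⟨c₂, hc₂, n₂, hn₂⟩ := hmove s sigF hl.s_act hs1 p₂ hp₂
  have ha : (v c₁).val % 256 = 0 := hn₁ ▸ moved_eps n₁
  have hb : (v c₂).val < 64 := hn₂ ▸ moved_sig n₂
  have ha0 : v c₁ ≠ 0 := fun h => hc₁ (hv0 _ h)
  have hb0 : v c₂ ≠ 0 := fun h => hc₂ (hv0 _ h)
  obtain ⟨h1, h2⟩ := no_pair _ _ ha hb ha0 hb0 (hvsing _) (hvsing _) cl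
  have h12 : c₁ * c₂ ≠ 1 := by
    intro h
    have : c₁ = c₂ := by
      rw [← mul_one c₁, ← show c₂ * c₂ = 1 from Subtype.ext (nc.W_sq c₂.2), ← mul_assoc, h, one_mul]
    rw [← this] at hb
    exact ha0 (Fin.ext (by simp only [Fin.val_zero]; omega))
  exact h2 (hvmul c₁ c₂ ▸ (hone c₁ _ hc₁ h12).mp h1)

end NoCentre

/-- `z` is in the derived group of the centraliser. -/
theorem mem_derived (cf : Conf z Q q pr act Mb Cb φ cl) (tw : Twin z Q pr φ g a a')
    (hP : PairData φ act (Eim z Q g)) (hX : Nat.card ↥X = 3) (hXQ : (X ⊔ Q).Normal) :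
    zH z ∈ ⁅Subgroup.centralizer (X : Set ↥(Cz z)), Subgroup.centralizer (X : Set ↥(Cz z))⁆ := by
  by_contra h
  exact NoCentre.absurd_of_not_mem (nc := ⟨cf, tw, hP, hX, hXQ, h⟩)

end CfsgLib.LargeFischer64
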