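import Cfsg.Agent.LargeFischer64.Centre
import Cfsg.Agent.LargeFischer64.Perp

/-!
Large Fischer type: two conjugates of `z` in `Q`, and the group of conjugates in `H` of the second
copy of `Q`; facts used to place `z` in the derived group of the centraliser of the element of order
three.
-/

set_option autoImplicit false

namespace CfsgLib.LargeFischer64

open CfsgLib.LargeFischer85
open scoped commutatorElement

variable {G : Type*} [Group G]

/-- The centraliser of an element. -/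
abbrev Cz (z : G) : Subgroup G := Subgroup.centralizer ({z} : Set G)

/-- `Q` as a subgroup of `G`. -/
abbrev Qhat (z : G) (Q : Subgroup ↥(Cz z)) : Subgroup G := Q.map (Cz z).subtype

/-- The part in `H` of the conjugate of `Q`. -/
def Rg (z : G) (Q : Subgroup ↥(Cz z)) (g : G) : Subgroup ↥(Cz z) :=
  ((Qhat z Q).map (MulAut.conj g).toMonoidHom).subgroupOf (Cz z)

/-- Two conjugates of `z` in `Q` at the standard vector. -/
structure Twin (z : G) (Q : Subgroup ↥(Cz z)) [Q.Normal] (pr : ↥Q → V) (φ : Fin 4096 ≃ V) (g : G)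
    (a a' : ↥Q) : Prop where
  a_eq : ((a : ↥(Cz z)) : G) = g * z * g⁻¹
  a'_eq : ((a' : ↥(Cz z)) : G) = g⁻¹ * z * g
  nu_a : nu φ pr a = n0
  nu_a' : nu φ pr a' = n0
  card_I : Nat.card ↥(Qhat z Q ⊓ (Qhat z Q).map (MulAut.conj g).toMonoidHom) = 2 ^ 7

variable {z : G} {Q : Subgroup ↥(Cz z)} [Q.Normal]
  {q : V → ZMod 2} {pr : ↥Q → V} {act : (↥(Cz z) ⧸ Q) →* Equiv.Perm V}
  {Mb Cb : Subgroup (↥(Cz z) ⧸ Q)} [Cb.Normal] {φ : Fin 4096 ≃ V} {cl : ZMod 3}
  {g : G} {a a' : ↥Q}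

theorem zH_central : zH z ∈ Subgroup.center ↥(Cz z) :=
  Subgroup.mem_center_iff.mpr fun h => zH_comm h

theorem mem_Rg {h : ↥(Cz z)} : h ∈ Rg z Q g ↔ g⁻¹ * (h : G) * g ∈ Qhat z Q :=
  LargeExtraspecial.mem_conj_iff _ g _

/-- The vectors of the intersection of the two copies of `Q`. -/
def isoPart (hA : IsAction z Q q pr act) (g : G) : AddSubgroup V where
  carrier := {v | ∃ i : ↥Q, (i : ↥(Cz z)) ∈ Rg z Q g ∧ pr i = v}
  add_mem' := by
    rintro _ _ ⟨i, hi, rfl⟩ ⟨j, hj, rfl⟩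
    exact ⟨i * j, (Rg z Q g).mul_mem hi hj, hA.pr_mul i j⟩
  zero_mem' := ⟨1, (Rg z Q g).one_mem, (hA.pr_zero 1).mpr (Or.inl rfl)⟩
  neg_mem' := by
    rintro _ ⟨i, hi, rfl⟩
    exact ⟨i, hi, (ZModModule.neg_eq_self (pr i)).symm⟩

namespace Conf

variable (cf : Conf z Q q pr act Mb Cb φ cl)
include cf

theorem pr_eq_of_nu (b : ↥Q) : pr b = φ (nu φ pr b) := (φ.apply_symm_apply _).symm

theorem nu_eq_iff (b c : ↥Q) : nu φ pr b = nu φ pr c ↔ pr b = pr c := φ.symm.injective.eq_iff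

theorem diff_of_pr_eq {b c : ↥Q} (h : pr b = pr c) :
    (b : ↥(Cz z))⁻¹ * c = 1 ∨ (b : ↥(Cz z))⁻¹ * c = zH z := by
  have h2 := cf.action.pr_mul b (b⁻¹ * c)
  rw [mul_inv_cancel_left, h] at h2
  have h3 : nu φ pr (b⁻¹ * c) = 0 := by
    rw [nu, add_eq_left.1 h2.symm]
    exact φ.injective (by rw [φ.apply_symm_apply, cf.ctx.frame.map_zero])
  exact cf.nu_eq_zero.mp h3

theorem pr_inv (b : ↥Q) : pr b⁻¹ = pr b := by
  have h1 := cf.action.pr_mul b⁻¹ b
  rw [inv_mul_cancel, (cf.action.pr_zero 1).mpr (Or.inl rfl)] at h1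
  funext i
  have := congrFun h1 i
  simp only [Pi.add_apply, Pi.zero_apply] at this
  revert this; generalize pr b⁻¹ i = x; generalize pr b i = y; revert x y; decide

theorem act_conj (h : ↥(Cz z)) (b : ↥Q) :
    act (QuotientGroup.mk' Q h) (pr b) =
      pr ⟨h * b * h⁻¹, Subgroup.Normal.conj_mem inferInstance _ b.2 h⟩ :=
  cf.action.act_pr h b _ rfl

theorem comm_Q (b c : ↥Q) : (b : ↥(Cz z)) * c * (b : ↥(Cz z))⁻¹ * (c : ↥(Cz z))⁻¹ = 1 ∨
    (b : ↥(Cz z)) * c * (b : ↥(Cz z))⁻¹ * (c : ↥(Cz z))⁻¹ = zH z := by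
  rcases (cf.setting.mem_iff _).1 (LargeExtraspecial.comm_mem cf.setting.extraspecial
    (cf.mem_Q.mpr b.2) (cf.mem_Q.mpr c.2)) with e | e
  · exact Or.inl (Subtype.ext e)
  · exact Or.inr (Subtype.ext e)

theorem comm_of_pol [Finite G] (b c : ↥Q) (h : (b : ↥(Cz z)) * c = c * b) : pol q (pr b) (pr c) = 0 := by
  classical
  have hcalc : ∀ d : ↥Q, q (pr d) = if d * d = 1 then 0 else 1 := fun d => by
    split_ifs with hd
    · exact (cf.action.pr_sq d).mpr hd
    · have hne : q (pr d) ≠ 0 := fun e => hd ((cf.action.pr_sq d).mp e)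
      revert hne; generalize q (pr d) = x; revert x; decide
  have hsq : ∀ d : ↥Q, d * d = 1 ∨ d * d = ⟨zH z, cf.zH_mem⟩ := fun d => by
    rcases (cf.setting.mem_iff _).1 (LargeExtraspecial.sq_mem cf.setting.extraspecial
      (cf.mem_Q.mpr d.2)) with e | e
    · exact Or.inl (Subtype.ext (Subtype.ext e))
    · exact Or.inr (Subtype.ext (Subtype.ext e))
  have hprod : (b * c) * (b * c) = (b * b) * (c * c) := by
    apply Subtype.ext
    show (b : ↥(Cz z)) * c * (b * c) = b * b * (c * c)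
    calc (b : ↥(Cz z)) * c * (b * c) = b * (c * b) * c := by simp only [mul_assoc]
      _ = b * b * (c * c) := by rw [← h]; simp only [mul_assoc]
  have hz2 : (⟨zH z, cf.zH_mem⟩ : ↥Q) * ⟨zH z, cf.zH_mem⟩ = 1 := Subtype.ext cf.zH_sq
  have hz1 : (⟨zH z, cf.zH_mem⟩ : ↥Q) ≠ 1 := fun e => cf.zH_ne (congrArg Subtype.val e)
  rw [pol, ← cf.action.pr_mul, hcalc, hcalc, hcalc, hprod]
  rcases hsq b with e | e <;> rcases hsq c with e' | e' <;> simp [e, e', hz2, hz1] <;> decide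

section

variable [Finite G] (tw : Twin z Q pr φ g a a')
include tw

theorem twin_setting : LargeExtraspecial.Setting ((Qhat z Q).map (MulAut.conj g).toMonoidHom)
    ((a : ↥(Cz z)) : G) := tw.a_eq ▸ cf.setting.conj g

theorem pr_a_ne : pr a ≠ 0 := by
  intro h
  have h1 := tw.nu_a
  rw [nu, h] at h1
  have h0 : φ.symm 0 = 0 := φ.injective (by rw [φ.apply_symm_apply, cf.ctx.frame.map_zero])
  exact absurd (h0.symm.trans h1) (by decide)

theorem a_ne_z : (a : ↥(Cz z)) ≠ zH z := fun e =>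
  cf.pr_a_ne tw ((cf.action.pr_zero a).mpr (Or.inr (congrArg Subtype.val e)))

theorem a_ne_one : (a : ↥(Cz z)) ≠ 1 := fun e =>
  cf.pr_a_ne tw ((cf.action.pr_zero a).mpr (Or.inl (congrArg Subtype.val e)))

theorem zH_mem_Rg : zH z ∈ Rg z Q g := by
  refine LargeExtraspecial.mem_conj_of_conj_mem cf.setting ?_ g
    (tw.a_eq ▸ cf.mem_Q.mpr a.2) (fun e => cf.a_ne_z tw (Subtype.ext (tw.a_eq.trans e)))
  calc (32 : ℕ) ≤ 2 ^ 7 := by norm_num
    _ ≤ Nat.card ↥(Qhat z Q) := tw.card_I ▸ Nat.le_of_dvd Nat.card_pos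
        (Subgroup.card_dvd_of_le inf_le_left)

theorem comm_Rg {x y : ↥(Cz z)} (hx : x ∈ Rg z Q g) (hy : y ∈ Rg z Q g) :
    x * y * x⁻¹ * y⁻¹ = 1 ∨ x * y * x⁻¹ * y⁻¹ = a := by
  rcases ((cf.twin_setting tw).mem_iff _).1
    (LargeExtraspecial.comm_mem (cf.twin_setting tw).extraspecial hx hy) with e | e
  · exact Or.inl (Subtype.ext e)
  · exact Or.inr (Subtype.ext e)

theorem conj_Rg {h x : ↥(Cz z)} (hh : h * a = a * h) (hx : x ∈ Rg z Q g) :
    h * x * h⁻¹ ∈ Rg z Q g :=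
  ((cf.twin_setting tw).normalized _ (congrArg Subtype.val hh) _).1 hx

theorem isotropic {i : ↥Q} (hi : (i : ↥(Cz z)) ∈ Rg z Q g) : q (pr i) = 0 := by
  rw [cf.action.pr_sq]
  apply Subtype.ext
  rcases (cf.setting.mem_iff _).1 (LargeExtraspecial.sq_mem cf.setting.extraspecial
    (cf.mem_Q.mpr i.2)) with e | e
  · exact Subtype.ext e
  rcases ((cf.twin_setting tw).mem_iff _).1 (LargeExtraspecial.sq_mem
    (cf.twin_setting tw).extraspecial hi) with e' | e'
  · exact Subtype.ext e'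
  · have e1 : ((i : ↥(Cz z)) : G) * (i : ↥(Cz z)) = ((a : ↥(Cz z)) : G) := e'
    exact absurd (Subtype.ext (e1.symm.trans e)) (cf.a_ne_z tw)

theorem card_isoPart : Nat.card ↥(isoPart cf.action g) = 2 ^ 6 := by
  let I : Subgroup ↥Q := (Rg z Q g).subgroupOf Q
  have hI : Nat.card ↥I = 2 ^ 7 := by
    rw [← tw.card_I]
    refine Nat.card_congr {
      toFun := fun i => ⟨((i.1 : ↥(Cz z)) : G), Subgroup.mem_inf.mpr ⟨cf.mem_Q.mpr i.1.2, i.2⟩⟩
      invFun := fun i =>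
        ⟨⟨⟨i.1, by obtain ⟨y, -, hy⟩ := (Subgroup.mem_inf.mp i.2).1; exact hy ▸ y.2⟩,
          cf.mem_Q.mp (Subgroup.mem_inf.mp i.2).1⟩, (Subgroup.mem_inf.mp i.2).2⟩
      left_inv := fun i => rfl
      right_inv := fun i => rfl }
  let f : ↥I →* Multiplicative ↥(isoPart cf.action g) :=
    { toFun := fun i => Multiplicative.ofAdd ⟨pr i.1, i.1, i.2, rfl⟩
      map_one' := Multiplicative.toAdd.injective
        (Subtype.ext ((cf.action.pr_zero 1).mpr (Or.inl rfl)))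
      map_mul' := fun i j => Multiplicative.toAdd.injective (Subtype.ext (cf.action.pr_mul i.1 j.1)) }
  have hf : Function.Surjective f := by
    rintro ⟨_, i, hi, rfl⟩
    exact ⟨⟨i, hi⟩, rfl⟩
  have hk : Nat.card ↥f.ker = 2 := by
    let zi : ↥I := ⟨⟨zH z, cf.zH_mem⟩, cf.zH_mem_Rg tw⟩
    have hzk : zi ∈ f.ker := Multiplicative.toAdd.injective
      (Subtype.ext ((cf.action.pr_zero _).mpr (Or.inr rfl)))
    rw [Nat.card_eq_two_iff]
    refine ⟨1, ⟨zi, hzk⟩, fun e => cf.zH_ne (congrArg (fun t : ↥f.ker => (t.1.1 : ↥(Cz z))) e).symm,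
      Set.eq_univ_of_forall fun t => ?_⟩
    have h0 : pr t.1.1 = 0 := congrArg (fun u => (Multiplicative.toAdd u).1) (MonoidHom.mem_ker.mp t.2)
    rcases (cf.action.pr_zero _).mp h0 with e | e
    · exact Or.inl (Subtype.ext (Subtype.ext (Subtype.ext (Subtype.ext e))))
    · exact Or.inr (Set.mem_singleton_iff.mpr (Subtype.ext (Subtype.ext (Subtype.ext (Subtype.ext e)))))
  have h := Subgroup.card_eq_card_quotient_mul_card_subgroup f.ker
  rw [Nat.card_congr (QuotientGroup.quotientKerEquivOfSurjective f hf).toEquiv, hI, hk] at h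
  have h2 : Nat.card (Multiplicative ↥(isoPart cf.action g)) = Nat.card ↥(isoPart cf.action g) :=
    Nat.card_congr Multiplicative.toAdd
  omega

end

end Conf

end CfsgLib.LargeFischer64
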